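import Cfsg.Agent.H11.QPd
import Cfsg.Agent.S5031

/-! Abstract root subgroups: groups `1 + K x` of a linear group. -/

set_option autoImplicit false
set_option linter.unusedSectionVars false
set_option linter.unusedSimpArgs false

open Subgroup Cfsg H16 H4 Cfsg.IsRankOnePair Relation
open scoped commutatorElement MatrixGroups

namespace H16.H11

theorem conn_of_not_cent {G : Type*} [Group G] {S : Set (Subgroup G)} (hS : IsRootSubgroupSet S) (hF : ∀ A ∈ S, NI S A)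
    {A B : Subgroup G} (hA : A ∈ S) (hB : B ∈ S) (h : ¬ A ≤ C[B]) : ReflTransGen (FAdj S) A B := by
  have h2 : ∀ A ∈ S, ∃ A' ∈ componentOf (FAdj S) S A, A' ≠ A := fun A hA =>
    let ⟨B, hB, h⟩ := hF A hA; ⟨B, ⟨hB, .single ⟨hA, hB, h⟩⟩, h.ne.symm⟩
  have key : ∀ {A B}, A ∈ S → CC S A B → ReflTransGen (FAdj S) ⁅A, B⁆ A := fun {A B} hA h => by
    have e : componentOf (FAdj S) S ⁅A, B⁆ = componentOf (FAdj S) S A := by_contra fun e =>
      Cfsg.Agent.S5031.result hS h.mem hA e (h2 _ h.mem) (h2 _ hA) (hS.cc_line hA (hF A hA) h)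
    exact (e.ge ⟨hA, .refl⟩).2
  rcases hS.cases hA hB with h1 | h1 | h1
  · exact absurd h1 h
  · exact .single ⟨hA, hB, h1⟩
  · exact (rtg_symm (fun _ _ => fadj_symm) (key hA h1)).trans (commutator_comm A B ▸ key hB h1.symm)

variable (K : Type*) {R L : Type*} [Field K] [Ring R] [Algebra K R] [Group L] (ρ : L →* R)

/-- the elements `1 + c x` -/
def TK (x : R) : Subgroup L := closure {g | ∃ c : K, ρ g = 1 + c • x}

/-- a family of nilpotent elements giving root subgroups -/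
structure Fam (X : Set R) : Prop where
  inj : Function.Injective ρ
  sq : ∀ x ∈ X, x * x = 0
  ne : ∀ x ∈ X, x ≠ 0
  full : ∀ x ∈ X, ∀ c : K, ∃ g, ρ g = 1 + c • x
  cj : ∀ x ∈ X, ∀ g, ρ g * x * ρ g⁻¹ ∈ X
  tri : ∀ x ∈ X, ∀ y ∈ X, x * y = y * x ∨ (∃ l : K, l ≠ 0 ∧ x * (y * x) = l • x ∧ y * (x * y) = l • y) ∨
    (x * (y * x) = 0 ∧ y * (x * y) = 0 ∧ x * y - y * x ∈ X)

variable {K ρ} {X : Set R} {x y : R} {g a b : L}

theorem rho_inv {c : K} (hx : x * x = 0) (e : ρ g = 1 + c • x) : ρ g⁻¹ = 1 + (-c) • x := by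
  have : ρ g * (1 + (-c) • x) = 1 := by simp [e, mul_add, add_mul, hx]
  rw [← mul_one (ρ g⁻¹), ← one_mul (1 + (-c) • x), ← this, ← mul_assoc, ← map_mul, inv_mul_cancel, map_one, this]

theorem mem_TK (hx : x * x = 0) : g ∈ TK K ρ x ↔ ∃ c : K, ρ g = 1 + c • x := by
  refine ⟨fun h => ?_, fun h => subset_closure h⟩
  induction h using closure_induction with
  | mem g h => exact h
  | one => exact ⟨0, by simp⟩
  | mul a b _ _ ha hb =>
    obtain ⟨c, e⟩ := ha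
    obtain ⟨d, e'⟩ := hb
    exact ⟨c + d, by simp [e, e', mul_add, add_mul, hx, add_smul, add_assoc]⟩
  | inv a _ ha => obtain ⟨c, e⟩ := ha; exact ⟨_, rho_inv hx e⟩

theorem TK_smul {c : K} (hc : c ≠ 0) : TK K ρ (c • x) = TK K ρ x := by
  unfold TK; congr 1; ext g
  exact ⟨fun ⟨d, e⟩ => ⟨d * c, by rw [e, smul_smul]⟩, fun ⟨d, e⟩ => ⟨d * c⁻¹, by rw [e, smul_smul, inv_mul_cancel_right₀ hc]⟩⟩

theorem TK_cj (hx : x * x = 0) (g : L) : TK K ρ x :^ g = TK K ρ (ρ g * x * ρ g⁻¹) := by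
  have e : ρ g⁻¹ * ρ g = 1 := by rw [← map_mul, inv_mul_cancel, map_one]
  have e' : ρ g * ρ g⁻¹ = 1 := by rw [← map_mul, mul_inv_cancel, map_one]
  ext a
  rw [mem_cj, mem_TK hx, mem_TK (by rw [mul_assoc, mul_assoc, ← mul_assoc (ρ g⁻¹), ← mul_assoc (ρ g⁻¹), e, one_mul,
    ← mul_assoc x, hx, zero_mul, mul_zero])]
  refine exists_congr fun c => ⟨fun h => ?_, fun h => ?_⟩
  · rw [show a = g * (g⁻¹ * a * g) * g⁻¹ by group, map_mul, map_mul, h]; simp [mul_add, add_mul, e']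
  · rw [map_mul, map_mul, h]
    simp only [mul_add, add_mul, mul_one, e, mul_smul_comm, smul_mul_assoc, mul_assoc]
    rw [← mul_assoc, e, one_mul]

namespace Fam

variable (h : Fam K ρ X) (hx : x ∈ X) (hy : y ∈ X)
include h hx

theorem ne_zero {c : K} (e : ρ a = 1 + c • x) (a1 : a ≠ 1) : c ≠ 0 := fun c0 => a1 (h.inj (by simp [e, c0]))

theorem ne_one {c : K} (e : ρ a = 1 + c • x) (c0 : c ≠ 0) : a ≠ 1 := fun a1 => by
  rw [a1, map_one, left_eq_add] at e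
  exact h.ne x hx (by rw [← one_smul K x, ← inv_mul_cancel₀ c0, mul_smul, e, smul_zero])

theorem ne_bot : TK K ρ x ≠ ⊥ :=
  let ⟨_, e⟩ := h.full x hx 1; ne_bot_of_mem (subset_closure ⟨1, e⟩) (h.ne_one hx e one_ne_zero)

include hy

theorem cent_iff : TK K ρ x ≤ C[TK K ρ y] ↔ x * y = y * x := by
  refine ⟨fun hc => ?_, fun e => le_cent_iff.2 fun a ha b hb => h.inj ?_⟩
  · obtain ⟨a, ha⟩ := h.full x hx 1
    obtain ⟨b, hb⟩ := h.full y hy 1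
    have := congrArg ρ (commute_of_le hc (subset_closure ⟨1, ha⟩) (subset_closure ⟨1, hb⟩)).eq
    simp only [map_mul, ha, hb, one_smul, mul_add, add_mul, mul_one, one_mul] at this
    linear_combination (norm := abel) this
  · obtain ⟨c, ha⟩ := (mem_TK (h.sq x hx)).1 ha
    obtain ⟨d, hb⟩ := (mem_TK (h.sq y hy)).1 hb
    simp only [map_mul, ha, hb, mul_add, add_mul, mul_one, one_mul, smul_mul_assoc, mul_smul_comm, e]
    module

theorem psl2 {l : K} (l0 : l ≠ 0) (h1 : x * (y * x) = l • x) (h2 : y * (x * y) = l • y) :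
    IsPSL2PairOver K (TK K ρ x) (TK K ρ y) := by
  have inj : ∀ a : K, algebraMap K R a * x = 0 → a = 0 := fun a ha => by_contra fun a0 => h.ne x hx (by
    rw [← one_smul K x, ← inv_mul_cancel₀ a0, mul_smul, Algebra.smul_def a, ha, smul_zero])
  obtain ⟨φ, h3, h4, h5⟩ := sl2_hom (algebraMap K R).toAddMonoidHom (E := x) (F := l⁻¹ • y) (h.sq x hx)
    (by simp [h.sq y hy]) (by simp [h1, smul_smul, l0]) (by simp [h2, smul_smul, l0]) (algebraMap K R).map_mul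
    (fun a => (Algebra.commutes a x).symm) (fun a => (Algebra.commutes a _).symm) (by simp) (by simp) inj
  have key : ∀ z ∈ X, ∀ u : Rˣ, u ∈ (TK K ρ z).map ρ.toHomUnits ↔ ∃ c : K, u.1 = 1 + c • z := fun z hz u =>
    ⟨by rintro ⟨g, hg, rfl⟩; exact (mem_TK (h.sq z hz)).1 hg, fun ⟨c, e⟩ =>
      let ⟨g, hg⟩ := h.full z hz c; ⟨g, subset_closure ⟨c, hg⟩, Units.ext (hg.trans e.symm)⟩⟩
  have e1 : (upperUnipotentSL2 K).map φ = (TK K ρ x).map ρ.toHomUnits := by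
    ext u; rw [key x hx]
    exact ⟨by rintro ⟨_, hg, rfl⟩; obtain ⟨c, rfl⟩ := mem_upper.1 hg; exact ⟨c, by simp [h4, Algebra.smul_def]⟩,
      fun ⟨c, e⟩ => ⟨upT c, mem_upper.2 ⟨c, rfl⟩, Units.ext (by simp [h4, e, Algebra.smul_def])⟩⟩
  have e2 : (lowerUnipotentSL2 K).map φ = (TK K ρ y).map ρ.toHomUnits := by
    ext u; rw [key y hy]
    exact ⟨by rintro ⟨_, hg, rfl⟩; obtain ⟨c, rfl⟩ := mem_lower.1 hg
              exact ⟨l⁻¹ * c, by simp [h5, ← Algebra.smul_def, smul_smul]⟩,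
      fun ⟨c, e⟩ => ⟨loT (l * c), mem_lower.2 ⟨_, rfl⟩, Units.ext (by simp [h5, e, ← Algebra.smul_def, smul_smul, l0])⟩⟩
  refine psl2_map (f := ρ.toHomUnits) (fun a b e => h.inj (congrArg Units.val e)) (psl2_of_hom φ e1 e2 fun h6 => ?_)
  rw [← e1, ← e2] at h6
  exact sl2_special.1.not_norm' (((map_le_map_iff_of_injective h3).1 h6).trans (le_norm _))

theorem comm_val (h1 : x * (y * x) = 0) (h2 : y * (x * y) = 0) {c d : K} (ha : ρ a = 1 + c • x) (hb : ρ b = 1 + d • y) :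
    ρ ⁅a, b⁆ = 1 + (c * d) • (x * y - y * x) := by
  have h3 : ∀ z, x * (y * (x * z)) = 0 := fun z => by rw [← mul_assoc y, ← mul_assoc, h1, zero_mul]
  have h4 : ∀ z, x * (x * z) = 0 := fun z => by rw [← mul_assoc, h.sq x hx, zero_mul]
  have h5 : ∀ z, y * (y * z) = 0 := fun z => by rw [← mul_assoc, h.sq y hy, zero_mul]
  rw [commutatorElement_def, map_mul, map_mul, map_mul, rho_inv (h.sq x hx) ha, rho_inv (h.sq y hy) hb, ha, hb]
  simp only [mul_add, add_mul, mul_assoc, smul_mul_assoc, mul_smul_comm, h.sq x hx, h.sq y hy, h1, h2, h3, h4, h5, mul_one,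
    one_mul, smul_zero, mul_zero, zero_mul]
  module

theorem cc (h1 : x * (y * x) = 0) (h2 : y * (x * y) = 0) (hz : x * y - y * x ∈ X) :
    ⁅TK K ρ x, TK K ρ y⁆ = TK K ρ (x * y - y * x) ∧ CC (TK K ρ '' X) (TK K ρ x) (TK K ρ y) := by
  have k1 : ∀ a ∈ TK K ρ x, a ≠ 1 → ∀ g ∈ TK K ρ (x * y - y * x), ∃ b ∈ TK K ρ y, ⁅a, b⁆ = g := fun a ha a1 g hg => by
    obtain ⟨c, ha⟩ := (mem_TK (h.sq x hx)).1 ha
    obtain ⟨e, hg⟩ := (mem_TK (h.sq _ hz)).1 hg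
    obtain ⟨b, hb⟩ := h.full y hy (c⁻¹ * e)
    exact ⟨b, subset_closure ⟨_, hb⟩, h.inj (by
      rw [h.comm_val hx hy h1 h2 ha hb, hg, mul_inv_cancel_left₀ (h.ne_zero hx ha a1)])⟩
  have k2 : ∀ b ∈ TK K ρ y, b ≠ 1 → ∀ g ∈ TK K ρ (x * y - y * x), ∃ a ∈ TK K ρ x, ⁅a, b⁆ = g := fun b hb b1 g hg => by
    obtain ⟨c, hb⟩ := (mem_TK (h.sq y hy)).1 hb
    obtain ⟨e, hg⟩ := (mem_TK (h.sq _ hz)).1 hg
    obtain ⟨a, ha⟩ := h.full x hx (e * c⁻¹)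
    exact ⟨a, subset_closure ⟨_, ha⟩, h.inj (by
      rw [h.comm_val hx hy h1 h2 ha hb, hg, inv_mul_cancel_right₀ (h.ne_zero hy hb b1)])⟩
  have e : ⁅TK K ρ x, TK K ρ y⁆ = TK K ρ (x * y - y * x) := by
    refine le_antisymm (commutator_le.2 fun a ha b hb => ?_) fun g hg => ?_
    · obtain ⟨c, ha⟩ := (mem_TK (h.sq x hx)).1 ha
      obtain ⟨d, hb⟩ := (mem_TK (h.sq y hy)).1 hb
      exact subset_closure ⟨_, h.comm_val hx hy h1 h2 ha hb⟩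
    · obtain ⟨a, ha, a1⟩ := exists_ne_one (h.ne_bot hx)
      obtain ⟨b, hb, rfl⟩ := k1 a ha a1 g hg
      exact commutator_mem_commutator ha hb
  refine ⟨e, e ▸ ⟨_, hz, rfl⟩, e ▸ (h.cent_iff hz hx).2 ?_, e ▸ (h.cent_iff hz hy).2 ?_, e ▸ k1, e ▸ k2⟩
  · simp [mul_sub, sub_mul, mul_assoc, h1, h.sq x hx, ← mul_assoc x x]
  · simp [mul_sub, sub_mul, mul_assoc, h2, h.sq y hy, ← mul_assoc y y]

theorem fadj {l : K} (l0 : l ≠ 0) (h1 : x * (y * x) = l • x) (h2 : y * (x * y) = l • y) :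
    FAdj (TK K ρ '' X) (TK K ρ x) (TK K ρ y) :=
  ⟨⟨x, hx, rfl⟩, ⟨y, hy, rfl⟩, (psl2_special (h.psl2 hx hy l0 h1 h2)).1⟩

omit hx hy

theorem pair : ∀ A ∈ TK K ρ '' X, ∀ B ∈ TK K ρ '' X, A ≤ C[B] ∨ IsPSL2PairOver K A B ∨ CC (TK K ρ '' X) A B := by
  rintro _ ⟨x, hx, rfl⟩ _ ⟨y, hy, rfl⟩
  exact (h.tri x hx y hy).imp (h.cent_iff hx hy).2
    (Or.imp (fun ⟨l, l0, h1, h2⟩ => h.psl2 hx hy l0 h1 h2) fun ⟨h1, h2, h3⟩ => (h.cc hx hy h1 h2 h3).2)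

theorem comm : ∀ A ∈ TK K ρ '' X, IsMulCommutative A := by
  rintro _ ⟨x, hx, rfl⟩; exact comm_iff.2 ((h.cent_iff hx hx).2 rfl)

theorem kpair : ∀ A ∈ TK K ρ '' X, ∀ B ∈ TK K ρ '' X, IsRankOnePair A B → IsPSL2PairOver K A B := fun A hA B hB hr => by
  rcases h.pair A hA B hB with h1 | h1 | h1
  · exact absurd h1 hr.not_cent
  · exact h1
  · obtain ⟨a, ha, a1⟩ := exists_ne_one hr.ne_bot
    exact absurd ((h1.symm.cj_le (mem_sup_right ha)).trans (sup_le (comm_iff.1 (h.comm B hB)) h1.symm.cA))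
      (IsRootSubgroupSet.not_cent_cj hr ha a1)

theorem cj_mem : ∀ A ∈ TK K ρ '' X, ∀ g, A :^ g ∈ TK K ρ '' X := by
  rintro _ ⟨x, hx, rfl⟩ g; exact ⟨_, h.cj x hx g, (TK_cj (h.sq x hx) g).symm⟩

theorem kroot (hg : ⨆ A ∈ TK K ρ '' X, A = ⊤) : IsKRootSubgroupSet K (TK K ρ '' X) :=
  ⟨⟨h.comm, by rintro _ ⟨x, hx, rfl⟩; exact h.ne_bot hx, hg, h.cj_mem, fun A hA B hB => (h.pair A hA B hB).imp comm_eq_bot.2
    (Or.imp (fun h => (psl2_special h).1) cc_iff.2)⟩, h.kpair⟩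

theorem kroot_sub : IsKRootSubgroupSet K (sub (TK K ρ '' X) (⨆ A ∈ TK K ρ '' X, A)) :=
  ⟨root_sub h.comm (by rintro _ ⟨x, hx, rfl⟩; exact h.ne_bot hx) (fun A hA g _ => h.cj_mem A hA g) fun A hA B hB =>
    (h.pair A hA B hB).imp_right (Or.imp_left fun h => (psl2_special h).1), H11.kroot_sub (fun _ => le_gen') h.kpair⟩

theorem deg (hd : ∀ x ∈ X, ∀ y ∈ X, x * y = y * x ∨ ∃ l : K, l ≠ 0 ∧ x * (y * x) = l • x ∧ y * (x * y) = l • y) :
    ∀ A ∈ TK K ρ '' X, ∀ B ∈ TK K ρ '' X, ¬ CC (TK K ρ '' X) A B := by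
  rintro _ ⟨x, hx, rfl⟩ _ ⟨y, hy, rfl⟩ h1
  rcases hd x hx y hy with e | ⟨l, l0, h2, h3⟩
  · obtain ⟨z, hz, e'⟩ := h1.mem
    exact h.ne_bot hz (e'.trans (comm_eq_bot.2 ((h.cent_iff hx hy).2 e)))
  · have hr := (psl2_special (h.psl2 hx hy l0 h2 h3)).1
    obtain ⟨a, ha, a1⟩ := exists_ne_one hr.ne_bot
    exact IsRootSubgroupSet.not_cent_cj hr ha a1
      ((h1.symm.cj_le (mem_sup_right ha)).trans (sup_le ((h.cent_iff hy hy).2 rfl) h1.symm.cA))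

theorem conn_sub (hF : ∀ x ∈ X, ∃ y ∈ X, ∃ l : K, l ≠ 0 ∧ x * (y * x) = l • x ∧ y * (x * y) = l • y) (hx : x ∈ X)
    (hy : y ∈ X) (hn : x * y ≠ y * x) : ReflTransGen (FAdj (TK K ρ '' X)) (TK K ρ x) (TK K ρ y) := by
  have hS : ∀ A ∈ TK K ρ '' X, A ≤ ⨆ A ∈ TK K ρ '' X, A := fun _ => le_gen'
  have e := fun x hx => map_subgroupOf_eq_of_le (hS _ ⟨x, hx, rfl⟩)
  have := rtg_of_sub hS (conn_of_not_cent h.kroot_sub.1 (by
    rintro _ ⟨_, ⟨x, hx, rfl⟩, rfl⟩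
    obtain ⟨y, hy, l, l0, h1, h2⟩ := hF x hx
    exact ⟨_, ⟨_, ⟨y, hy, rfl⟩, rfl⟩, (rank_map (subtype_injective _)).1 (by
      rw [e x hx, e y hy]; exact (h.fadj hx hy l0 h1 h2).2.2)⟩) ⟨_, ⟨x, hx, rfl⟩, rfl⟩ ⟨_, ⟨y, hy, rfl⟩, rfl⟩ fun hc => hn (by
    rw [← h.cent_iff hx hy, ← e x hx, ← e y hy, cent_map (subtype_injective _)]; exact hc))
  rwa [e x hx, e y hy] at this

end Fam

theorem class_of_conn {G : Type*} [Group G] {S : Set (Subgroup G)} (hS : IsRootSubgroupSet S) (h0 : S.Nonempty)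
    (h : IsConnectedFamily (FAdj S) S) : IsRootSubgroupClass S :=
  ⟨hS, h0, fun A hA B hB => IsRootSubgroupSet.conj_of_conn (h A hA B hB)⟩

end H16.H11
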