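import Cfsg.Agent.H11.ExV

/-! The transvection groups of `SL`. -/

set_option autoImplicit false
set_option linter.unusedSectionVars false
set_option linter.unusedSimpArgs false

open Matrix Cfsg Relation Subgroup H16

namespace H16.H11

variable {F : Type*} [Field F] {n : ℕ} {v w φ ψ : Fin n → F}

/-- nilpotent matrices of rank one -/
def XL (n : ℕ) (F : Type*) [Field F] : Set (Matrix (Fin n) (Fin n) F) :=
  {x | ∃ v φ, v ≠ 0 ∧ φ ≠ 0 ∧ φ ⬝ᵥ v = 0 ∧ x = vecMulVec v φ}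

theorem XL_smul {x : Matrix (Fin n) (Fin n) F} (h : x ∈ XL n F) {c : F} (hc : c ≠ 0) : c • x ∈ XL n F := by
  obtain ⟨v, φ, h1, h2, h3, rfl⟩ := h
  exact ⟨c • v, φ, smul_ne_zero hc h1, h2, by simp [h3], (smul_vecMulVec ..).symm⟩

theorem famL : Fam F (slToMat n F) (XL n F) := by
  refine ⟨fun a b e => Subtype.ext e, ?_, ?_, ?_, ?_, ?_⟩
  · rintro _ ⟨v, φ, h1, h2, h3, rfl⟩; rw [vv_mul, h3, zero_smul]
  · rintro _ ⟨v, φ, h1, h2, h3, rfl⟩; exact vecMulVec_ne_zero h1 h2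
  · rintro _ ⟨v, φ, h1, h2, h3, rfl⟩ c; exact ⟨⟨_, det_vv h3 c⟩, rfl⟩
  · rintro _ ⟨v, φ, h1, h2, h3, rfl⟩ g
    have e : ∀ u, (φ ᵥ* slToMat n F g⁻¹) ⬝ᵥ (slToMat n F g *ᵥ u) = φ ⬝ᵥ u := fun u => by
      rw [← dotProduct_mulVec, rho_vec']
    exact ⟨_, _, rho_ne _ g h1, fun e0 => h2 (vec_ext fun u => by rw [← e, e0]; simp), (e v).trans h3, by
      rw [mul_vecMulVec, vecMulVec_mul]⟩
  · rintro _ ⟨v, φ, h1, h2, h3, rfl⟩ _ ⟨w, ψ, h4, h5, h6, rfl⟩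
    rw [vv_tri, vv_tri, vv_mul, vv_mul]
    by_cases a : φ ⬝ᵥ w = 0 <;> by_cases b : ψ ⬝ᵥ v = 0
    · exact .inl (by simp [a, b])
    · exact .inr (.inr ⟨by simp [a], by simp [a], by
        rw [a, zero_smul, zero_sub, ← neg_smul]; exact XL_smul ⟨w, φ, h4, h2, a, rfl⟩ (neg_ne_zero.2 b)⟩)
    · exact .inr (.inr ⟨by simp [b], by simp [b], by rw [b, zero_smul, sub_zero]; exact XL_smul ⟨v, ψ, h1, h5, b, rfl⟩ a⟩)
    · exact .inr (.inl ⟨_, mul_ne_zero a b, rfl, by rw [mul_comm]⟩)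

theorem exists_dual (h1 : v ≠ 0) (h3 : φ ⬝ᵥ v = 0) (hw : φ ⬝ᵥ w ≠ 0) : ∃ ψ, ψ ⬝ᵥ v ≠ 0 ∧ ψ ⬝ᵥ w = 0 := by
  obtain ⟨χ, hχ⟩ := exists_dot h1
  exact ⟨χ - (χ ⬝ᵥ w / φ ⬝ᵥ w) • φ, by simpa [h3, dotProduct_comm χ], by simp [hw]⟩

theorem single_mem {i j : Fin n} (h : i ≠ j) : single i j (1 : F) ∈ XL n F :=
  ⟨Pi.single i 1, Pi.single j 1, by simp, by simp, by simp [h], single_eq_single_vecMulVec_single i j⟩

theorem krootL : IsKRootSubgroupSet F (TK F (slToMat n F) '' XL n F) :=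
  famL.kroot (H22.eq_top_of_transvection_mem _ fun i j h c => mem_gen _ _ (single_mem h) (c := c) (by
    simp [SpecialLinearGroup.transvection_coe]))

theorem niL : ∀ x ∈ XL n F, ∃ y ∈ XL n F, ∃ l : F, l ≠ 0 ∧ x * (y * x) = l • x ∧ y * (x * y) = l • y := by
  rintro _ ⟨v, φ, h1, h2, h3, rfl⟩
  obtain ⟨w, hw⟩ := exists_dot h2
  obtain ⟨ψ, h4, h5⟩ := exists_dual h1 h3 hw
  exact ⟨_, ⟨w, ψ, by rintro rfl; simp at hw, by rintro rfl; simp at h4, h5, rfl⟩, _, mul_ne_zero hw h4, vv_tri .., by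
    rw [vv_tri, mul_comm]⟩

theorem connL : IsConnectedFamily (FAdj (TK F (slToMat n F) '' XL n F)) (TK F (slToMat n F) '' XL n F) := by
  rintro _ ⟨_, ⟨v, φ, h1, h2, h3, rfl⟩, rfl⟩ _ ⟨_, ⟨w, ψ, h4, h5, h6, rfl⟩, rfl⟩
  obtain ⟨u, a, b⟩ := exists_dot2 h2 h5
  obtain ⟨χ, c, d⟩ := exists_dual h1 h3 a
  have u0 : u ≠ 0 := by rintro rfl; simp at a
  have χ0 : χ ≠ 0 := by rintro rfl; simp at c
  refine .head (famL.fadj ⟨v, φ, h1, h2, h3, rfl⟩ ⟨u, χ, u0, χ0, d, rfl⟩ (mul_ne_zero a c) (vv_tri ..) (by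
    rw [vv_tri, mul_comm])) (famL.conn_sub niL ⟨u, χ, u0, χ0, d, rfl⟩ ⟨w, ψ, h4, h5, h6, rfl⟩ fun e => ?_)
  rw [vv_mul, vv_mul] at e
  have : χ ⬝ᵥ w = 0 := by simpa [smul_mulVec, vv_vec, d, b, u0] using congrArg (· *ᵥ u) e
  rw [this, zero_smul] at e
  exact smul_ne_zero b (vecMulVec_ne_zero h4 χ0) e.symm

theorem conjL {x y : Matrix (Fin n) (Fin n) F} (hx : x ∈ XL n F) (hy : y ∈ XL n F) :
    ∃ g, TK F (slToMat n F) y = TK F (slToMat n F) x :^ g :=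
  IsRootSubgroupSet.conj_of_conn (connL _ ⟨x, hx, rfl⟩ _ ⟨y, hy, rfl⟩)

end H16.H11
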