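import Cfsg.Agent.H11.ExV
import Cfsg.Agent.H23.Mat

/-! Siegel transformations of the hyperbolic quadratic form as root elements. -/

set_option autoImplicit false
set_option linter.unusedSectionVars false

open Subgroup Cfsg H16 Matrix Relation

namespace H16.H11

variable {F : Type*} [Field F] {M : ℕ}

/-- polar form -/
def pf (M : ℕ) (F : Type*) [Field F] : (Fin M ⊕ Fin M → F) →ₗ[F] (Fin M ⊕ Fin M → F) →ₗ[F] F :=
  LinearMap.mk₂ F (fun u v => (fun j => u j.swap) ⬝ᵥ v)
    (fun _ _ _ => add_dotProduct _ _ _) (fun _ _ _ => smul_dotProduct _ _ _)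
    (fun _ _ _ => dotProduct_add _ _ _) (fun _ _ _ => dotProduct_smul _ _ _)

theorem pf_def (u v : Fin M ⊕ Fin M → F) : (fun j => u j.swap) ⬝ᵥ v = pf M F u v := rfl

theorem pf_comm (u v : Fin M ⊕ Fin M → F) : pf M F u v = pf M F v u := by
  simp [← pf_def, dotProduct, mul_comm, add_comm]

theorem Q_add (u v : Fin M ⊕ Fin M → F) :
    quadFormPlus M F (u + v) = quadFormPlus M F u + quadFormPlus M F v + pf M F u v := by
  simp only [← pf_def, dotProduct, quadFormPlus, Fintype.sum_sum_type, Pi.add_apply,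
    ← Finset.sum_add_distrib, Sum.swap_inl, Sum.swap_inr]
  exact Finset.sum_congr rfl fun i _ => by ring

theorem Q_smul (c : F) (u : Fin M ⊕ Fin M → F) :
    quadFormPlus M F (c • u) = c ^ 2 * quadFormPlus M F u := by
  simp only [quadFormPlus, Pi.smul_apply, smul_eq_mul, Finset.mul_sum]
  exact Finset.sum_congr rfl fun i _ => by ring

theorem pf_self (u : Fin M ⊕ Fin M → F) : pf M F u u = 2 * quadFormPlus M F u := by
  have := Q_add u u
  rw [← two_smul F u, Q_smul] at this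
  linear_combination -this

theorem pf_single (u : Fin M ⊕ Fin M → F) (j) : pf M F u (Pi.single j 1) = u j.swap := by
  simp [← pf_def]

theorem pf_nd {u : Fin M ⊕ Fin M → F} (h : ∀ v, pf M F u v = 0) : u = 0 := by
  ext j
  simpa [pf_single] using h (Pi.single j.swap 1)

theorem Q_single (j : Fin M ⊕ Fin M) : quadFormPlus M F (Pi.single j 1) = 0 := by
  cases j <;> simp [quadFormPlus, Pi.single_apply]

/-- the nilpotent part of a Siegel transformation -/
def sx (p r : Fin M ⊕ Fin M → F) : Matrix (Fin M ⊕ Fin M) (Fin M ⊕ Fin M) F :=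
  vecMulVec r (fun j => p j.swap) - vecMulVec p (fun j => r j.swap)

theorem sx_vec (p r v : Fin M ⊕ Fin M → F) : sx p r *ᵥ v = pf M F p v • r - pf M F r v • p := by
  rw [sx, sub_mulVec, vv_vec, vv_vec, pf_def, pf_def]

/-- a basis of a singular line -/
structure SL (p r : Fin M ⊕ Fin M → F) : Prop where
  li : ∀ a b : F, a • p + b • r = 0 → a = 0 ∧ b = 0
  qp : quadFormPlus M F p = 0
  qr : quadFormPlus M F r = 0
  pr : pf M F p r = 0

variable {p r s t : Fin M ⊕ Fin M → F}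

theorem SL.pp (h : SL p r) : pf M F p p = 0 := by rw [pf_self, h.qp, mul_zero]
theorem SL.rr (h : SL p r) : pf M F r r = 0 := by rw [pf_self, h.qr, mul_zero]
theorem SL.rp (h : SL p r) : pf M F r p = 0 := by rw [pf_comm, h.pr]

theorem SL.q (h : SL p r) (a b : F) : quadFormPlus M F (a • p + b • r) = 0 := by
  simp [Q_add, Q_smul, h.qp, h.qr, h.pr]

theorem sx_ne (h : ∀ a b : F, a • p + b • r = 0 → a = 0 ∧ b = 0) : sx p r ≠ 0 := by
  intro e
  have : p = 0 := pf_nd fun v => by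
    have h1 := sx_vec p r v
    rw [e, zero_mulVec] at h1
    exact (h (- pf M F r v) (pf M F p v) (by rw [h1]; module)).2
  simpa using (h 1 0 (by simp [this])).1

theorem sx_zero (h : ¬ ∀ a b : F, a • p + b • r = 0 → a = 0 ∧ b = 0) : sx p r = 0 := by
  push Not at h
  obtain ⟨a, b, h1, h2⟩ := h
  refine mat_ext fun v => ?_
  rw [sx_vec, zero_mulVec]
  by_cases ha : a = 0
  · have : r = 0 := by simpa [ha, h2 ha] using h1
    simp [this]
  · have : p = (-(b / a)) • r := by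
      rw [← one_smul F p, ← inv_mul_cancel₀ ha, mul_smul, eq_neg_of_add_eq_zero_left h1]
      module
    rw [this]; simp [smul_smul, mul_comm]

theorem sx_tri (p r s t : Fin M ⊕ Fin M → F) : sx p r * (sx s t * sx p r) =
    (pf M F p t * pf M F r s - pf M F p s * pf M F r t) • sx p r := by
  refine mat_ext fun v => ?_
  simp only [← mulVec_mulVec, smul_mulVec, sx_vec, map_sub, map_smul, smul_eq_mul,
    pf_comm s p, pf_comm s r, pf_comm t p, pf_comm t r]
  module

theorem rank_one {a b c d : F} (h : b * c - a * d = 0) :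
    ∃ u1 u2 w1 w2 : F, a = u1 * w1 ∧ b = u1 * w2 ∧ c = u2 * w1 ∧ d = u2 * w2 := by
  by_cases ha : a = 0
  · by_cases hb : b = 0
    · exact ⟨0, 1, c, d, by simp [ha, hb]⟩
    · have : c = 0 := by simpa [ha, hb] using h
      exact ⟨b, d, 0, 1, by simp [ha, this]⟩
  · refine ⟨1, c / a, a, b, by simp, by simp, by field_simp, ?_⟩
    field_simp
    linear_combination -h

theorem sx_comm {u1 u2 w1 w2 : F} (h1 : pf M F p s = u1 * w1) (h2 : pf M F p t = u1 * w2)
    (h3 : pf M F r s = u2 * w1) (h4 : pf M F r t = u2 * w2) :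
    sx p r * sx s t - sx s t * sx p r = sx (u2 • p + (-u1) • r) (w2 • s + (-w1) • t) := by
  refine mat_ext fun v => ?_
  simp only [sub_mulVec, ← mulVec_mulVec, sx_vec, map_sub, map_add, map_smul, smul_eq_mul,
    LinearMap.add_apply, LinearMap.smul_apply, pf_comm s p, pf_comm s r, pf_comm t p, pf_comm t r,
    h1, h2, h3, h4]
  module

theorem SL.sq (h : SL p r) : sx p r * sx p r = 0 := by
  refine mat_ext fun v => ?_
  simp [← mulVec_mulVec, sx_vec, h.pp, h.pr, h.rp, h.rr]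

theorem SL.nc (h : SL p r) (h' : SL s t)
    (h1 : ¬ (pf M F p s = 0 ∧ pf M F p t = 0 ∧ pf M F r s = 0 ∧ pf M F r t = 0))
    (h2 : ∀ a b c d : F, a • p + b • r = c • s + d • t → a = 0 ∧ b = 0) :
    sx p r * sx s t ≠ sx s t * sx p r := by
  intro e
  have e1 := sx_tri p r s t
  rw [← e, ← mul_assoc, h.sq, zero_mul, eq_comm, smul_eq_zero, or_iff_left (sx_ne h.li)] at e1
  obtain ⟨u1, u2, w1, w2, a1, a2, a3, a4⟩ := rank_one e1
  have e2 := sx_comm a1 a2 a3 a4
  rw [e, sub_self] at e2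
  refine sx_ne (fun a b hab => ?_) e2.symm
  have b1 := h2 (a * u2) (- (a * u1)) (- (b * w2)) (b * w1) (by
    rw [← sub_eq_zero, ← hab]; module)
  have b2 := h'.li (b * w2) (- (b * w1)) (by
    have : (a * u2) • p + (- (a * u1)) • r = 0 := by rw [b1.1, b1.2]; simp
    rw [← hab, ← sub_eq_zero, ← neg_eq_zero, ← this]; module)
  simp only [neg_eq_zero, mul_eq_zero] at b1 b2
  constructor
  · by_contra ha
    simp [a1, a2, a3, a4, b1.1.resolve_left ha, b1.2.resolve_left ha] at h1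
  · by_contra hb
    simp [a1, a2, a3, a4, b2.1.resolve_left hb, b2.2.resolve_left hb] at h1

theorem SL.dual (h : SL p r) : ∃ s t, SL s t ∧ pf M F p s = 1 ∧ pf M F p t = 0 ∧
    pf M F r s = 0 ∧ pf M F r t = 1 := by
  obtain ⟨s, t, a1, a2, a3, a4⟩ : ∃ s t, pf M F p s = 1 ∧ pf M F p t = 0 ∧
      pf M F r s = 0 ∧ pf M F r t = 1 := by
    have hp : ∃ v, pf M F p v ≠ 0 := by
      by_contra hh
      push Not at hh
      simpa using (h.li 1 0 (by simp [pf_nd hh])).1
    obtain ⟨v, hv⟩ := hp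
    have hr : ∃ w, pf M F (pf M F p v • r - pf M F r v • p) w ≠ 0 := by
      by_contra hh
      push Not at hh
      exact hv (h.li (- pf M F r v) (pf M F p v) (by rw [← pf_nd hh]; module)).2
    obtain ⟨w, hw⟩ := hr
    simp only [map_sub, map_smul, LinearMap.sub_apply, LinearMap.smul_apply, smul_eq_mul] at hw
    set d := pf M F p v * pf M F r w - pf M F r v * pf M F p w with hd
    refine ⟨d⁻¹ • (pf M F r w • v - pf M F r v • w), d⁻¹ • (pf M F p v • w - pf M F p w • v),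
      ?_, ?_, ?_, ?_⟩ <;> simp only [map_sub, map_smul, smul_eq_mul] <;> field_simp <;>
      simp only [hd] <;> ring
  let s1 := s + (- quadFormPlus M F s) • p
  let t1 := t + (- quadFormPlus M F t) • r
  have b1 : pf M F p s1 = 1 := by simp [s1, a1, h.pp]
  have b2 : pf M F r s1 = 0 := by simp [s1, a3, h.rp]
  have b3 : pf M F p t1 = 0 := by simp [t1, a2, h.pr]
  have b4 : pf M F r t1 = 1 := by simp [t1, a4, h.rr]
  have b5 : quadFormPlus M F s1 = 0 := by
    simp only [s1, Q_add, Q_smul, h.qp, map_smul, pf_comm s p, a1]; simp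
  have b6 : quadFormPlus M F t1 = 0 := by
    simp only [t1, Q_add, Q_smul, h.qr, map_smul, pf_comm t r, a4]; simp
  clear_value s1 t1
  refine ⟨s1, t1 + (- pf M F s1 t1) • p, ⟨fun a b e => ?_, b5, ?_, ?_⟩, b1, by simp [b3, h.pp], b2,
    by simp [b4, h.rp]⟩
  · have e1 := congrArg (pf M F p) e
    have e2 := congrArg (pf M F r) e
    simp [b1, b2, b3, b4, h.pp, h.rp] at e1 e2
    exact ⟨e1, e2⟩
  · simp only [Q_add, Q_smul, h.qp, b6, map_smul, pf_comm t1 p, b3]; simp
  · simp [pf_comm s1 p, b1]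

/-- the Siegel elements -/
def XO (M : ℕ) (F : Type*) [Field F] : Set (Matrix (Fin M ⊕ Fin M) (Fin M ⊕ Fin M) F) :=
  {x | ∃ p r, SL p r ∧ x = sx p r}

/-- the natural representation -/
abbrev ρO (M : ℕ) (F : Type*) [Field F] :
    isometryGroup F (quadFormPlus M F) →* Matrix (Fin M ⊕ Fin M) (Fin M ⊕ Fin M) F :=
  (Units.coeHom _).comp (isometryGroup F (quadFormPlus M F)).subtype

theorem ρO_Q (g : isometryGroup F (quadFormPlus M F)) (u) :
    quadFormPlus M F (ρO M F g *ᵥ u) = quadFormPlus M F u := (H23.mem_preserving _ _ _).1 g.2 u u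

theorem ρO_pf (g : isometryGroup F (quadFormPlus M F)) (u v) :
    pf M F (ρO M F g *ᵥ u) (ρO M F g *ᵥ v) = pf M F u v := by
  have := ρO_Q g (u + v)
  rw [mulVec_add, Q_add, Q_add, ρO_Q, ρO_Q] at this
  linear_combination this

theorem famO : Fam F (ρO M F) (XO M F) := by
  refine ⟨fun a b e => Subtype.ext (Units.ext e), ?_, ?_, ?_, ?_, ?_⟩
  · rintro _ ⟨p, r, h, rfl⟩; exact h.sq
  · rintro _ ⟨p, r, h, rfl⟩; exact sx_ne h.li
  · rintro _ ⟨p, r, h, rfl⟩ c
    refine ⟨⟨⟨1 + c • sx p r, 1 + (-c) • sx p r, by simp [mul_add, add_mul, h.sq],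
      by simp [mul_add, add_mul, h.sq]⟩, (H23.mem_preserving _ _ _).2 fun u _ => ?_⟩, rfl⟩
    have e : ∀ m m' h1 h2, Units.coeHom (Matrix (Fin M ⊕ Fin M) (Fin M ⊕ Fin M) F) ⟨m, m', h1, h2⟩
      = m := fun _ _ _ _ => rfl
    rw [e, add_mulVec, one_mulVec, smul_mulVec, sx_vec, Q_add, Q_smul,
      show pf M F p u • r - pf M F r u • p = (- pf M F r u) • p + pf M F p u • r by module, h.q]
    simp [pf_comm u p, pf_comm u r, mul_comm]
  · rintro _ ⟨p, r, h, rfl⟩ g
    refine ⟨ρO M F g *ᵥ p, ρO M F g *ᵥ r, ⟨fun a b e => h.li a b ?_, by rw [ρO_Q, h.qp],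
      by rw [ρO_Q, h.qr], by rw [ρO_pf, h.pr]⟩, mat_ext fun v => ?_⟩
    · by_contra e'
      exact rho_ne (ρO M F) g e' (by rw [mulVec_add, mulVec_smul, mulVec_smul, e])
    · rw [← mulVec_mulVec, ← mulVec_mulVec, sx_vec, sx_vec, mulVec_sub, mulVec_smul, mulVec_smul,
        ← ρO_pf g p, ← ρO_pf g r, rho_vec]
  · rintro _ ⟨p, r, h, rfl⟩ _ ⟨s, t, h', rfl⟩
    have e1 := sx_tri p r s t
    have e2 := sx_tri s t p r
    rw [pf_comm s, pf_comm s, pf_comm t, pf_comm t, mul_comm (pf M F r s)] at e2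
    by_cases hD : pf M F p t * pf M F r s - pf M F p s * pf M F r t = 0
    swap
    · exact .inr (.inl ⟨_, hD, e1, e2⟩)
    rw [hD, zero_smul] at e1 e2
    obtain ⟨u1, u2, w1, w2, a1, a2, a3, a4⟩ := rank_one hD
    have e3 := sx_comm a1 a2 a3 a4
    by_cases hl : ∀ a b : F, a • (u2 • p + (-u1) • r) + b • (w2 • s + (-w1) • t) = 0 → a = 0 ∧ b = 0
    · refine .inr (.inr ⟨e1, e2, _, _, ⟨hl, h.q _ _, h'.q _ _, ?_⟩, e3⟩)
      simp only [map_add, map_smul, LinearMap.add_apply, LinearMap.smul_apply, smul_eq_mul,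
        a1, a2, a3, a4]
      ring
    · exact .inl (sub_eq_zero.1 (e3.trans (sx_zero hl)))

theorem niO : ∀ x ∈ XO M F, ∃ y ∈ XO M F, ∃ l : F, l ≠ 0 ∧ x * (y * x) = l • x ∧ y * (x * y) = l • y := by
  rintro _ ⟨p, r, h, rfl⟩
  obtain ⟨s, t, h', a1, a2, a3, a4⟩ := h.dual
  refine ⟨_, ⟨s, t, h', rfl⟩, -1, by simp, ?_, ?_⟩
  · rw [sx_tri, a1, a2, a3, a4]; simp
  · rw [sx_tri, pf_comm s, pf_comm s, pf_comm t, pf_comm t, a1, a2, a3, a4]; simp

theorem SL.single {i j : Fin M ⊕ Fin M} (h : i ≠ j) (h' : i ≠ j.swap) :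
    SL (Pi.single i (1 : F)) (Pi.single j 1) := by
  refine ⟨fun a b e => ?_, Q_single i, Q_single j, by simp [pf_single, h'.symm]⟩
  have e1 := congrFun e i
  have e2 := congrFun e j
  simp [h, h.symm] at e1 e2
  exact ⟨e1, e2⟩

theorem connO {m : ℕ} : IsConnectedFamily (FAdj (TK F (ρO (m + 3) F) '' XO (m + 3) F))
    (TK F (ρO (m + 3) F) '' XO (m + 3) F) := by
  set R := ReflTransGen (FAdj (TK F (ρO (m + 3) F) '' XO (m + 3) F))
  have hs : ∀ {A B}, R A B → R B A := fun h => rtg_symm (fun _ _ => fadj_symm) h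
  let T := fun p r : Fin (m + 3) ⊕ Fin (m + 3) → F => TK F (ρO (m + 3) F) (sx p r)
  have nc : ∀ {p r s t}, SL p r → SL s t → ¬ (pf _ F p s = 0 ∧ pf _ F p t = 0 ∧ pf _ F r s = 0 ∧
      pf _ F r t = 0) → (∀ a b c d : F, a • p + b • r = c • s + d • t → a = 0 ∧ b = 0) →
      R (T p r) (T s t) := fun h h' h1 h2 =>
    famO.conn_sub niO ⟨_, _, h, rfl⟩ ⟨_, _, h', rfl⟩ (h.nc h' h1 h2)
  have LR : ∀ i j k l : Fin (m + 3), i ≠ j → k ≠ l → (i = k ∨ i = l) →
      R (T (Pi.single (.inl i) 1) (Pi.single (.inl j) 1))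
        (T (Pi.single (.inr k) 1) (Pi.single (.inr l) 1)) := by
    intro i j k l h1 h2 h3
    refine nc (.single (by simpa) (by simp)) (.single (by simpa) (by simp)) ?_ fun a b c d e => ?_
    · rcases h3 with rfl | rfl <;> simp [pf_single]
    · have e1 := congrFun e (.inl i)
      have e2 := congrFun e (.inl j)
      simp [h1, h1.symm] at e1 e2
      exact ⟨e1, e2⟩
  have h01 : (0 : Fin (m + 3)) ≠ 1 := zero_ne_one
  have L0 : ∀ i j : Fin (m + 3), i ≠ j → R (T (Pi.single (.inl i) 1) (Pi.single (.inl j) 1))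
      (T (Pi.single (.inl 0) 1) (Pi.single (.inl 1) 1)) := by
    intro i j h
    by_cases hi : i = 0
    · exact (LR i j 0 1 h h01 (.inl hi)).trans (hs (LR 0 1 0 1 h01 h01 (.inl rfl)))
    · exact (LR i j 0 i h (Ne.symm hi) (.inr rfl)).trans (hs (LR 0 1 0 i h01 (Ne.symm hi) (.inl rfl)))
  have step : ∀ {p r}, SL p r → ∀ j i i' : Fin (m + 3) ⊕ Fin (m + 3), p j.swap ≠ 0 → j ≠ i → j ≠ i' →
      i ≠ i' → j ≠ i.swap → j ≠ i'.swap →
      R (T p r) (T (Pi.single j 1) (Pi.single i 1)) ∨ R (T p r) (T (Pi.single j 1) (Pi.single i' 1)) := by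
    intro p r h j i i' h0 h1 h2 h3 h4 h5
    by_cases c1 : ∀ a b c d : F, a • p + b • r = c • Pi.single j 1 + d • Pi.single i 1 → a = 0 ∧ b = 0
    · exact .inl (nc h (.single h1 h4) (by simp [pf_single, h0]) c1)
    refine .inr (nc h (.single h2 h5) (by simp [pf_single, h0]) fun a' b' c' d' e' => ?_)
    push Not at c1
    obtain ⟨a, b, c, d, e, hab⟩ := c1
    have h4' : j.swap ≠ i := fun e => h4 (by rw [← e]; simp)
    have h5' : j.swap ≠ i' := fun e => h5 (by rw [← e]; simp)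
    have hjj : j.swap ≠ j := by cases j <;> simp
    have e1 := congrFun e j.swap
    have e2 := congrFun e' j.swap
    simp [h4', h5', hjj] at e1 e2
    have hb : b ≠ 0 := by
      rintro rfl
      exact hab (by simpa [h0] using e1) rfl
    have hd : d ≠ 0 := by
      rintro rfl
      have e3 := congrArg (pf _ F p) e
      simp [h.pp, h.pr, pf_single, h0] at e3
      exact hb (h.li a b (by simp [e, e3])).2
    have e4 : b' • (a • p + b • r) = b • (a' • p + b' • r) := by
      have : a' * b = a * b' := by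
        apply mul_right_cancel₀ h0
        linear_combination b * e2 - b' * e1
      rw [smul_add, smul_add, smul_smul, smul_smul, smul_smul, smul_smul, mul_comm b a', this,
        mul_comm a, mul_comm b]
    rw [e, e'] at e4
    have e5 := congrFun e4 i
    simp [h1.symm, h3, hd] at e5
    exact ⟨by simpa [e5, h0] using e2, e5⟩
  have all : ∀ {p r}, SL p r → R (T p r) (T (Pi.single (.inl 0) 1) (Pi.single (.inl 1) 1)) := by
    intro p r h
    have hp : p ≠ 0 := fun e => by simpa using (h.li 1 0 (by simp [e])).1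
    obtain ⟨j, hj⟩ := Function.ne_iff.1 hp
    have ex : ∀ k : Fin (m + 3), ∃ i i', k ≠ i ∧ k ≠ i' ∧ i ≠ i' := fun k =>
      ⟨k + 1, k + 2, by simp, by simp [Fin.ext_iff, Nat.mod_eq_of_lt (show 2 < m + 3 by omega)],
        by simp [Fin.ext_iff, Nat.mod_eq_of_lt (show 2 < m + 3 by omega)]⟩
    rcases j with k | k <;> obtain ⟨i, i', a1, a2, a3⟩ := ex k
    · rcases step h (.inr k) (.inr i) (.inr i') hj (by simpa) (by simpa) (by simpa) (by simp)
        (by simp) with q | q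
      · exact q.trans ((hs (LR k i k i a1 a1 (.inl rfl))).trans (L0 k i a1))
      · exact q.trans ((hs (LR k i' k i' a2 a2 (.inl rfl))).trans (L0 k i' a2))
    · rcases step h (.inl k) (.inl i) (.inl i') hj (by simpa) (by simpa) (by simpa) (by simp)
        (by simp) with q | q
      · exact q.trans (L0 k i a1)
      · exact q.trans (L0 k i' a2)
  rintro _ ⟨_, ⟨p, r, h, rfl⟩, rfl⟩ _ ⟨_, ⟨s, t, h', rfl⟩, rfl⟩
  exact (all h).trans (hs (all h'))

theorem SL.fix (h : SL p r) (g : isometryGroup F (quadFormPlus M F)) :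
    (∀ v, pf M F p v = 0 → pf M F r v = 0 → ρO M F g *ᵥ v = v) ↔
      ∃ c : F, ρO M F g = 1 + c • sx p r := by
  constructor
  swap
  · rintro ⟨c, e⟩ v h1 h2
    rw [e, add_mulVec, one_mulVec, smul_mulVec, sx_vec, h1, h2]; simp
  intro hg
  obtain ⟨s, t, h', a1, a2, a3, a4⟩ := h.dual
  have dec : ∀ v, ρO M F g *ᵥ (v - pf M F p v • s - pf M F r v • t) =
      v - pf M F p v • s - pf M F r v • t := fun v => hg _ (by simp [a1, a2]) (by simp [a3, a4])
  have mv : ∀ u, ρO M F g *ᵥ u = u + pf M F (ρO M F g *ᵥ u - u) s • p +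
      pf M F (ρO M F g *ᵥ u - u) t • r := by
    intro u
    rw [← sub_eq_zero]
    refine pf_nd fun v => ?_
    have e := ρO_pf g u (v - pf M F p v • s - pf M F r v • t)
    rw [dec] at e
    simp only [map_sub, map_add, map_smul, LinearMap.sub_apply, LinearMap.add_apply,
      LinearMap.smul_apply, smul_eq_mul] at e ⊢
    linear_combination e
  obtain ⟨a, b, e1⟩ : ∃ a b : F, ρO M F g *ᵥ s = s + (a • p + b • r) := ⟨_, _, (mv s).trans (add_assoc ..)⟩
  obtain ⟨c, d, e2⟩ : ∃ c d : F, ρO M F g *ᵥ t = t + (c • p + d • r) := ⟨_, _, (mv t).trans (add_assoc ..)⟩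
  have b1 := ρO_Q g s
  have b2 := ρO_Q g t
  have b3 := ρO_pf g s t
  rw [e1, Q_add, h.q] at b1
  rw [e2, Q_add, h.q] at b2
  rw [e1, e2] at b3
  simp [pf_comm s p, pf_comm s r, pf_comm t p, pf_comm t r, a1, a2, a3, a4, h.pp, h.pr, h.rp,
    h.rr] at b1 b2 b3
  have b4 : c = -b := by linear_combination b3
  refine ⟨b, mat_ext fun v => ?_⟩
  have e3 := dec v
  rw [mulVec_sub, mulVec_sub, mulVec_smul, mulVec_smul, e1, e2, b1, b2, b4] at e3
  rw [add_mulVec, one_mulVec, smul_mulVec, sx_vec, ← sub_eq_zero, ← sub_eq_zero.2 e3]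
  module

end H16.H11
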