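import Cfsg.Agent.H11.Ex
import Cfsg.Agent.H23.SpGen
import Cfsg.Agent.H22.Linear

/-! Rank one matrices. -/

set_option autoImplicit false
set_option linter.unusedSectionVars false
set_option linter.unusedSimpArgs false

open Matrix Cfsg Relation

namespace H16.H11

variable {F ι : Type*} [Field F] [Fintype ι] {u v w φ ψ χ : ι → F}

theorem vv_vec (u φ v : ι → F) : vecMulVec u φ *ᵥ v = (φ ⬝ᵥ v) • u := by
  rw [vecMulVec_mulVec, op_smul_eq_smul]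

theorem vv_mul (u φ v ψ : ι → F) : vecMulVec u φ * vecMulVec v ψ = (φ ⬝ᵥ v) • vecMulVec u ψ := by
  rw [vecMulVec_mul_vecMulVec, vecMulVec_smul]

theorem vv_tri (u φ v ψ : ι → F) :
    vecMulVec u φ * (vecMulVec v ψ * vecMulVec u φ) = ((φ ⬝ᵥ v) * (ψ ⬝ᵥ u)) • vecMulVec u φ := by
  rw [vv_mul, Matrix.mul_smul, vv_mul, smul_smul, mul_comm]

theorem mat_ext [DecidableEq ι] {A B : Matrix ι ι F} (h : ∀ v, A *ᵥ v = B *ᵥ v) : A = B :=
  toLin'.injective (LinearMap.ext h)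

theorem vec_ext [DecidableEq ι] (h : ∀ v, φ ⬝ᵥ v = ψ ⬝ᵥ v) : φ = ψ := funext fun i => by simpa using h (Pi.single i 1)

theorem exists_dot [DecidableEq ι] (h : φ ≠ 0) : ∃ v, φ ⬝ᵥ v ≠ 0 := by
  by_contra hc
  exact h (vec_ext fun v => by simpa using not_exists.1 hc v)

theorem exists_dot2 [DecidableEq ι] (h : φ ≠ 0) (h' : ψ ≠ 0) : ∃ v, φ ⬝ᵥ v ≠ 0 ∧ ψ ⬝ᵥ v ≠ 0 := by
  obtain ⟨a, ha⟩ := exists_dot h
  obtain ⟨b, hb⟩ := exists_dot h'
  by_cases h1 : ψ ⬝ᵥ a = 0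
  · by_cases h2 : φ ⬝ᵥ b = 0
    · exact ⟨a + b, by simpa [h2], by simpa [h1]⟩
    · exact ⟨b, h2, hb⟩
  · exact ⟨a, ha, h1⟩

theorem det_vv [DecidableEq ι] (h : φ ⬝ᵥ u = 0) (c : F) : (1 + c • vecMulVec u φ).det = 1 := by
  rw [← smul_vecMulVec, vecMulVec_eq Unit, det_one_add_replicateCol_mul_replicateRow, dotProduct_smul, h]; simp

section
variable [DecidableEq ι] {L : Type*} [Group L] (ρ : L →* Matrix ι ι F) (g : L)

theorem rho_vec (v : ι → F) : ρ g *ᵥ (ρ g⁻¹ *ᵥ v) = v := by rw [mulVec_mulVec, ← map_mul, mul_inv_cancel, map_one, one_mulVec]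

theorem rho_vec' (v : ι → F) : ρ g⁻¹ *ᵥ (ρ g *ᵥ v) = v := by simpa using rho_vec ρ g⁻¹ v

theorem rho_ne (h : v ≠ 0) : ρ g *ᵥ v ≠ 0 := fun e => h (by rw [← rho_vec' ρ g v, e, mulVec_zero])

theorem mem_gen {K : Type*} [Field K] [Algebra K (Matrix ι ι F)] {X : Set (Matrix ι ι F)} {x : Matrix ι ι F} (hx : x ∈ X)
    {c : K} (e : ρ g = 1 + c • x) : g ∈ ⨆ A ∈ TK K ρ '' X, A :=
  le_gen' (S := TK K ρ '' X) ⟨x, hx, rfl⟩ (Subgroup.subset_closure (k := {g | ∃ c : K, ρ g = 1 + c • x}) ⟨c, e⟩)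

end

/-- a graph in which two non-adjacent points can be joined through common neighbours -/
theorem rtg_of_nbr {α β : Type*} {r : β → β → Prop} (f : α → β) (P : α → Prop) (n : α → α → Prop)
    (hs : ∀ a b, n a b → n b a) (h1 : ∀ a b, P a → P b → n a b → ReflTransGen r (f a) (f b))
    (h2 : ∀ a, P a → ∃ b, P b ∧ n a b)
    (h3 : ∀ a b c d, P c → P d → n a c → n b d → ¬ n a d → ¬ n b c → ¬ n c d → ∃ e, P e ∧ n a e ∧ n b e)
    {a b : α} (ha : P a) (hb : P b) : ReflTransGen r (f a) (f b) := by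
  obtain ⟨c, hc, ac⟩ := h2 a ha
  obtain ⟨d, hd, bd⟩ := h2 b hb
  by_cases ad : n a d
  · exact (h1 a d ha hd ad).trans (h1 d b hd hb (hs _ _ bd))
  by_cases bc : n b c
  · exact (h1 a c ha hc ac).trans (h1 c b hc hb (hs _ _ bc))
  by_cases cd : n c d
  · exact (h1 a c ha hc ac).trans ((h1 c d hc hd cd).trans (h1 d b hd hb (hs _ _ bd)))
  obtain ⟨e, he, ae, be⟩ := h3 a b c d hc hd ac bd ad bc cd
  exact (h1 a e ha he ae).trans (h1 e b he hb (hs _ _ be))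

end H16.H11
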