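import Cfsg.Agent.H11.R2b
import Cfsg.Agent.H6.Baer

/-! Root involutions: basic properties. -/

set_option autoImplicit false
set_option linter.unusedSectionVars false

open Subgroup Cfsg H16 Relation
open scoped commutatorElement

namespace H16.H11

variable {G : Type*} [Group G] {D : Set G} {a b c d e f g u x y z : G}

/-- distinct with product of odd order -/
def Od (a b : G) : Prop := a ≠ b ∧ Odd (orderOf (a * b))

/-- product of order four -/
def V4 (a b : G) : Prop := orderOf (a * b) = 4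

/-- a self-conjugate set of root involutions -/
structure RI (D : Set G) : Prop where
  sq : ∀ d ∈ D, d * d = 1
  ne : ∀ d ∈ D, d ≠ 1
  cj : ∀ d ∈ D, ∀ e ∈ D, e * d * e⁻¹ ∈ D
  pair : ∀ a ∈ D, ∀ b ∈ D, a * b = b * a ∨ Odd (orderOf (a * b)) ∨ (orderOf (a * b) = 4 ∧ (a * b) ^ 2 ∈ D)

theorem ri_of (h : IsRootInvolutionSet D) : RI D :=
  ⟨fun d hd => H6.ord2_mul_self (h.orderOf_eq d hd), fun d hd => H6.ord2_ne_one (h.orderOf_eq d hd),
    fun d hd e _ => h.conj_mem d hd e, h.pair⟩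

theorem orderOf_swap (a b : G) : orderOf (a * b) = orderOf (b * a) := by
  rw [← orderOf_cj (b * a) a]; congr 1; group

theorem Od.symm (h : Od a b) : Od b a := ⟨h.1.symm, orderOf_swap a b ▸ h.2⟩

theorem V4.symm (h : V4 a b) : V4 b a := (orderOf_swap b a).trans h

theorem conj_mul' (g a b : G) : g * a * g⁻¹ * (g * b * g⁻¹) = g * (a * b) * g⁻¹ := by group

theorem Od.cj (h : Od a b) (g : G) : Od (g * a * g⁻¹) (g * b * g⁻¹) :=
  ⟨fun e => h.1 (by simpa using e), by rw [conj_mul', orderOf_cj]; exact h.2⟩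

theorem V4.cj (h : V4 a b) (g : G) : V4 (g * a * g⁻¹) (g * b * g⁻¹) := by
  rw [V4, conj_mul', orderOf_cj]; exact h

theorem commute_cj (h : Commute a b) (g : G) : Commute (g * a * g⁻¹) (g * b * g⁻¹) := by
  rw [Commute, SemiconjBy, conj_mul', conj_mul', h.eq]

theorem cj_eq (h : Commute g a) : g * a * g⁻¹ = a := by rw [h.eq, mul_inv_cancel_right]

theorem Od.not_v4 (h : Od a b) : ¬ V4 a b := fun h' => by
  have := h.2; rw [h'] at this; exact absurd this (by decide)

theorem commute_of_sq (h : Odd (orderOf x)) (hc : Commute z (x * x)) : Commute z x := by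
  obtain ⟨k, hk⟩ := h
  have : (x * x) ^ (k + 1) = x := by
    rw [← sq, ← pow_mul, show 2 * (k + 1) = orderOf x + 1 by omega, pow_succ, pow_orderOf_eq_one, one_mul]
  exact this ▸ hc.pow_right (k + 1)

namespace RI

variable (h : RI D)
include h

theorem inv (ha : a ∈ D) : a⁻¹ = a := inv_eq_of_mul_eq_one_right (h.sq a ha)

theorem mul_mul (ha : a ∈ D) (x : G) : a * (a * x) = x := by rw [← mul_assoc, h.sq a ha, one_mul]

theorem conj (hg : g ∈ closure D) (hd : d ∈ D) : g * d * g⁻¹ ∈ D := by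
  induction hg using closure_induction'' generalizing d with
  | one => simpa using hd
  | mem x hx => exact h.cj d hd x hx
  | inv_mem x hx => rw [h.inv hx]; exact h.cj d hd x hx
  | mul x y _ _ hx hy => simpa [mul_assoc] using hx (hy hd)

theorem sq_eq (ha : a ∈ D) (hb : b ∈ D) : a * b * (a * b) = ⁅a, b⁆ := by
  rw [commutatorElement_def, h.inv ha, h.inv hb, mul_assoc (a * b)]

theorem od_not_comm (ha : a ∈ D) (hb : b ∈ D) (ho : Od a b) : ¬ Commute a b := fun hc => ho.1 (by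
  have := H6.eq_one_of_odd_of_sq ho.2 (by rw [h.sq_eq ha hb]; exact commutatorElement_eq_one_iff_commute.2 hc)
  rw [eq_inv_of_mul_eq_one_left this, h.inv hb])

theorem v4_not_comm (ha : a ∈ D) (hb : b ∈ D) (hv : V4 a b) : ¬ Commute a b := fun hc => by
  have h1 : (a * b) ^ 2 = 1 := by rw [pow_two, h.sq_eq ha hb]; exact commutatorElement_eq_one_iff_commute.2 hc
  have := orderOf_dvd_of_pow_eq_one h1
  rw [hv] at this; exact absurd this (by decide)

theorem cases (ha : a ∈ D) (hb : b ∈ D) : Commute a b ∨ Od a b ∨ V4 a b := by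
  rcases h.pair a ha b hb with h1 | h1 | h1
  · exact Or.inl h1
  · by_cases e : a = b
    · exact Or.inl (e ▸ Commute.refl a)
    · exact Or.inr (Or.inl ⟨e, h1⟩)
  · exact Or.inr (Or.inr h1.1)

theorem v4_mem (ha : a ∈ D) (hb : b ∈ D) (hv : V4 a b) : ⁅a, b⁆ ∈ D := by
  rcases h.pair a ha b hb with h1 | h1 | h1
  · exact absurd h1 (h.v4_not_comm ha hb hv)
  · rw [hv] at h1; exact absurd h1 (by decide)
  · rw [← h.sq_eq ha hb, ← pow_two]; exact h1.2

theorem v4_swap (ha : a ∈ D) (hb : b ∈ D) (hv : V4 a b) : ⁅b, a⁆ = ⁅a, b⁆ := by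
  rw [← commutatorElement_inv, h.inv (h.v4_mem ha hb hv)]

theorem v4_left (ha : a ∈ D) (hb : b ∈ D) (hv : V4 a b) : Commute ⁅a, b⁆ a := by
  have := h.v4_swap ha hb hv
  rw [Commute, SemiconjBy]
  nth_rewrite 1 [← this]
  simp only [commutatorElement_def, h.inv ha, h.inv hb, mul_assoc, h.sq a ha, h.mul_mul ha, mul_one]

theorem v4_right (ha : a ∈ D) (hb : b ∈ D) (hv : V4 a b) : Commute ⁅a, b⁆ b := by
  rw [← h.v4_swap ha hb hv]; exact h.v4_left hb ha hv.symm

/-- `b a b⁻¹ = a ⁅a, b⁆` -/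
theorem conj_eq (ha : a ∈ D) (b : G) : b * a * b⁻¹ = ⁅b, a⁆ * a := by
  rw [commutatorElement_def]; group

theorem v4_conj (ha : a ∈ D) (hb : b ∈ D) (hv : V4 a b) : b * a * b⁻¹ = a * ⁅a, b⁆ := by
  rw [h.conj_eq ha, h.v4_swap ha hb hv, (h.v4_left ha hb hv).eq]

theorem v4_mul (ha : a ∈ D) (hb : b ∈ D) (hv : V4 a b) : a * ⁅a, b⁆ ∈ D := h.v4_conj ha hb hv ▸ h.cj a ha b hb

theorem v4_comm_cj (ha : a ∈ D) (hb : b ∈ D) (hv : V4 a b) : Commute a (b * a * b⁻¹) := by
  rw [h.v4_conj ha hb hv]; exact (Commute.refl a).mul_right (h.v4_left ha hb hv).symm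

theorem od_cj (ha : a ∈ D) (hx : x ∈ D) (ho : Od a x) : Od x (a * x * a⁻¹) := by
  refine ⟨fun e => h.od_not_comm ha hx ho (H6.conj_eq_iff_commute.1 e.symm), ?_⟩
  rw [h.inv ha, show x * (a * x * a) = (x * a) ^ 2 by rw [pow_two]; group]
  exact H6.odd_orderOf_pow ho.symm.2 2

theorem od_of_cj (ha : a ∈ D) (hx : x ∈ D) (hc : ¬ Commute x (a * x * a⁻¹)) : Od a x := by
  rcases h.cases ha hx with h1 | h1 | h1
  · rw [cj_eq h1] at hc; exact absurd rfl hc
  · exact h1
  · exact absurd (h.v4_comm_cj hx ha h1.symm) hc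

theorem commute_of_od (ha : a ∈ D) (hx : x ∈ D) (ho : Od a x) (h1 : Commute z a) (h2 : Commute z (x * a * x⁻¹)) :
    Commute z x := by
  have h3 : Commute z (a * x) := commute_of_sq ho.2 (by
    rw [show a * x * (a * x) = a * (x * a * x⁻¹) by rw [h.inv hx]; group]; exact h1.mul_right h2)
  simpa [h.mul_mul ha] using h1.mul_right h3

theorem cent_mul (ha : a ∈ D) (hx : x ∈ D) (ho : Od a x) (h1 : Commute z a) (h2 : Commute z x) (hz : z * a ∈ D) :
    z = 1 := by
  have h3 : x * (z * a) * x⁻¹ = z * (x * a * x⁻¹) := by rw [← mul_assoc, ← h2.eq]; group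
  have h4 : z * z = 1 := by
    have := h.sq _ hz
    rwa [mul_assoc, ← mul_assoc a, ← h1.eq, mul_assoc, h.sq a ha, mul_one] at this
  have h5 : Od (z * a) x := h.od_of_cj hz hx fun hc => h.od_not_comm hx (h.cj x hx a ha) (h.od_cj ha hx ho) (by
    rwa [mul_inv_rev, h1.eq, mul_assoc a z x, h2.eq, show a * (x * z) * (a⁻¹ * z⁻¹) = a * x * (z * a⁻¹) * z⁻¹ by group,
      h1.inv_right.eq, show a * x * (a⁻¹ * z) * z⁻¹ = a * x * a⁻¹ by group] at hc)
  have h6 := pow_orderOf_eq_one (z * a * x)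
  rw [mul_assoc, (h1.mul_right h2).mul_pow] at h6
  have h7 := congrArg (· ^ orderOf (a * x)) h6
  simp only [one_pow] at h7
  rw [((h1.mul_right h2).pow_pow _ _).mul_pow, ← pow_mul (a * x), mul_comm, pow_mul (a * x), pow_orderOf_eq_one,
    one_pow, mul_one, ← pow_mul] at h7
  obtain ⟨k, hk⟩ := (mul_assoc z a x ▸ h5.2).mul ho.2
  rwa [hk, pow_succ, pow_mul, pow_two, h4, one_pow, one_mul] at h7

theorem cent_mul' (ha : a ∈ D) (hx : x ∈ D) (ho : Od a x) (hz : z ∈ D) (h1 : Commute z a) (h2 : a * z ∈ D) :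
    ¬ Commute z x := fun h3 => h.ne z hz (h.cent_mul ha hx ho h1 h3 (h1.eq ▸ h2))

theorem pow_four (ha : a ∈ D) (hb : b ∈ D) (ho : ¬ Od a b) : (a * b) ^ 4 = 1 := by
  rcases h.cases ha hb with h1 | h1 | h1
  · rw [h1.mul_pow, show 4 = 2 * 2 from rfl, pow_mul, pow_mul, pow_two a, pow_two b, h.sq a ha, h.sq b hb]; simp
  · exact absurd h1 ho
  · rw [← h1, pow_orderOf_eq_one]

theorem tri_not_od (ha : a ∈ D) (hb : b ∈ D) (hc : c ∈ D) (h1 : V4 a b) (hac : Commute a c) (h2 : V4 c b) :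
    ¬ Od a (b * c * b⁻¹) := fun ho =>
  h.cent_mul' ha (h.cj c hc b hb) ho (h.cj a ha b hb) (h.v4_comm_cj ha hb h1).symm
    (by rw [h.v4_conj ha hb h1, h.mul_mul ha]; exact h.v4_mem ha hb h1) (commute_cj hac b)

theorem tri (ha : a ∈ D) (hb : b ∈ D) (hc : c ∈ D) (h1 : V4 a b) (h2 : V4 c b) (hac : Commute a c) :
    (a * c * b) ^ 8 = 1 := by
  have u := h.pow_four ha (h.cj c hc b hb) (h.tri_not_od ha hb hc h1 hac h2)
  have v := h.pow_four hc (h.cj a ha b hb) (h.tri_not_od hc hb ha h2 hac.symm h1)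
  have c1 := h.v4_comm_cj ha hb h1
  have c2 := h.v4_comm_cj hc hb h2
  have c3 := commute_cj hac b
  have e : (a * c * b) ^ 2 = (a * (b * c * b⁻¹)) * (c * (b * a * b⁻¹)) := by
    rw [mul_assoc a (b * c * b⁻¹), ← mul_assoc _ c, ← c2.eq, mul_assoc c, ← c3.eq, pow_two, h.inv hb]
    simp only [mul_assoc, h.mul_mul hb]
  rw [show 8 = 2 * 4 from rfl, pow_mul, e, Commute.mul_pow, u, v, one_mul]
  exact (hac.mul_right c1).mul_left (c2.symm.mul_right c3.symm)

theorem tri_false (ha : a ∈ D) (hb : b ∈ D) (hc : c ∈ D) (h1 : V4 a b) (h2 : V4 c b) (hac : Commute a c) :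
    ¬ Od (a * c) b := fun ho => ho.1 (by
  have := H6.eq_one_of_odd_of_two_pow ho.2 (k := 3) (h.tri ha hb hc h1 h2 hac)
  rw [eq_inv_of_mul_eq_one_left this, h.inv hb])

theorem od_conj (ha : a ∈ D) (hx : x ∈ D) (ho : Od a x) : ∃ g ∈ closure D, g * a * g⁻¹ = x := by
  obtain ⟨k, hk⟩ := H6.exists_pow_conj_of_odd (h.sq a ha) (h.sq x hx) ho.2
  exact ⟨_, pow_mem (mul_mem (subset_closure ha) (subset_closure hx)) k, hk⟩

theorem adj_cj (hg : g ∈ closure D) (h1 : OddAdj D a b) : OddAdj D (g * a * g⁻¹) (g * b * g⁻¹) :=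
  ⟨h.conj hg h1.1, h.conj hg h1.2.1, Od.cj h1.2.2 g⟩

omit h in
theorem adj_symm (h1 : OddAdj D a b) : OddAdj D b a := ⟨h1.2.1, h1.1, Od.symm h1.2.2⟩

theorem conn_cj0 (ha : a ∈ D) (hd : d ∈ D) (ho : Od a d) (he : e ∈ D) : ReflTransGen (OddAdj D) a (e * a * e⁻¹) := by
  have hae := h.cj a ha e he
  rcases h.cases ha he with h1 | h1 | h1
  · rw [cj_eq h1.symm]
  · exact .head ⟨ha, he, h1⟩ (.single ⟨he, hae, show Od _ _ by simpa using h1.symm.cj e⟩)
  have hc := h.v4_mem ha he h1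
  have ca := h.v4_left ha he h1
  rcases h.cases hc hd with h2 | h2 | h2
  · exact absurd h2 (h.cent_mul' ha hd ho hc ca (h.v4_mul ha he h1))
  · refine .head ⟨ha, hd, ho⟩ (.head ⟨hd, hc, h2.symm⟩ (.head ⟨hc, h.cj d hd e he, ?_⟩
      (.single ⟨h.cj d hd e he, hae, ho.symm.cj e⟩)))
    have := h2.cj e
    rwa [cj_eq (h.v4_right ha he h1).symm] at this
  rcases h.cases hae hd with h3 | h3 | h3
  · exfalso
    refine h.od_not_comm hd (h.cj d hd a ha) (h.od_cj ha hd ho) ?_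
    have : a * d * a⁻¹ = ⁅a, e⁆ * d * ⁅a, e⁆⁻¹ := by
      have := cj_eq h3
      rw [h.v4_conj ha he h1] at this
      conv_lhs => rw [← this]
      simp only [mul_inv_rev, h.inv ha, mul_assoc, h.mul_mul ha, h.sq a ha, mul_one]
    rw [this]; exact h.v4_comm_cj hd hc h2.symm
  · exact .head ⟨ha, hd, ho⟩ (.single ⟨hd, hae, h3.symm⟩)
  · refine absurd ?_ (h.tri_false hae hd hc h3 h2 (by
      rw [h.v4_conj ha he h1]; exact ca.symm.mul_left (Commute.refl _)))
    rwa [h.v4_conj ha he h1, mul_assoc, h.sq _ hc, mul_one]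

theorem conn_cj (ha : a ∈ D) (hd : d ∈ D) (ho : Od a d) (hg : g ∈ closure D) :
    ReflTransGen (OddAdj D) a (g * a * g⁻¹) := by
  induction hg using closure_induction'' with
  | one => simpa using ReflTransGen.refl
  | mem x hx => exact h.conn_cj0 ha hd ho hx
  | inv_mem x hx => rw [h.inv hx]; exact h.conn_cj0 ha hd ho hx
  | mul x y hx _ ihx ihy =>
    have := rtg_lift' (fun a => x * a * x⁻¹) (fun _ _ h1 => .single (h.adj_cj hx h1)) ihy
    exact ihx.trans (by simpa [mul_assoc] using this)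

theorem conj_of_conn (h1 : ReflTransGen (OddAdj D) a b) : ∃ g ∈ closure D, g * a * g⁻¹ = b := by
  induction h1 with
  | refl => exact ⟨1, one_mem _, by simp⟩
  | tail _ h2 ih =>
    obtain ⟨g, hg, rfl⟩ := ih
    obtain ⟨x, hx, e⟩ := h.od_conj h2.1 h2.2.1 h2.2.2
    exact ⟨x * g, mul_mem hx hg, by rw [← e]; group⟩

/-- a product partner of a non-isolated element is isolated or in the same component -/
theorem conn_line (ha : a ∈ D) (hb : b ∈ D) (hab : Commute a b) (he : a * b ∈ D) (hd : d ∈ D) (ho : Od a d)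
    (hx : x ∈ D) (ho' : Od b x) : ReflTransGen (OddAdj D) a b := by
  have key : ∀ {a b d : G}, a ∈ D → b ∈ D → Commute a b → a * b ∈ D → d ∈ D → Od a d →
      ReflTransGen (OddAdj D) a b ∨ ReflTransGen (OddAdj D) a (a * b) := by
    intro a b d ha hb hab he hd ho
    rcases h.cases hb hd with h1 | h1 | h1
    · exact absurd h1 (h.cent_mul' ha hd ho hb hab.symm he)
    · exact Or.inl (.head ⟨ha, hd, ho⟩ (.single ⟨hd, hb, h1.symm⟩))
    rcases h.cases he hd with h2 | h2 | h2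
    · exact absurd h2 (h.cent_mul' ha hd ho he ((Commute.refl a).mul_left hab.symm) (by rwa [h.mul_mul ha]))
    · exact Or.inr (.head ⟨ha, hd, ho⟩ (.single ⟨hd, he, h2.symm⟩))
    · refine absurd ?_ (h.tri_false he hd hb h2 h1 (hab.mul_left (Commute.refl b)))
      rwa [mul_assoc, h.sq b hb, mul_one]
  have sy : ∀ {a b : G}, ReflTransGen (OddAdj D) a b → ReflTransGen (OddAdj D) b a := rtg_symm fun _ _ => adj_symm
  rcases key ha hb hab he hd ho with h1 | h1
  · exact h1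
  rcases key hb ha hab.symm (hab.eq ▸ he) hx ho' with h2 | h2
  · exact sy h2
  · exact h1.trans (sy (hab.eq ▸ h2))

theorem pgroup_pair (ha : a ∈ D) (hb : b ∈ D) (ho : ¬ Od a b) : IsPGroup 2 (closure ({a, b} : Set G)) :=
  H6.isPGroup_closure_pair (h.sq a ha) (h.sq b hb) (k := 2) (h.pow_four ha hb ho)

theorem not_od_of_pgroup {P : Subgroup G} (hP : IsPGroup 2 P) (ha : a ∈ P) (hb : b ∈ P) (hb' : b ∈ D) : ¬ Od a b :=
  fun ho => ho.1 (by
    obtain ⟨k, hk⟩ := H6.IsPGroup_pow_eq_one hP (mul_mem ha hb)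
    rw [eq_inv_of_mul_eq_one_left (H6.eq_one_of_odd_of_two_pow ho.2 hk), h.inv hb'])

/-- a self-conjugate set of involutions without odd products generates a `2`-group -/
theorem pgroup_closure [Finite G] {M : Set G} (hM : M ⊆ D) (hc : ∀ a ∈ M, ∀ b ∈ M, b * a * b⁻¹ ∈ M)
    (ho : ∀ a ∈ M, ∀ b ∈ M, ¬ Od a b) : IsPGroup 2 (closure M) := by
  obtain ⟨P⟩ : Nonempty (Sylow 2 (closure M)) := inferInstance
  have h1 : ∀ g ∈ closure M, ∀ a ∈ M, g * a * g⁻¹ ∈ M := by
    intro g hg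
    induction hg using closure_induction'' with
    | one => simp
    | mem x hx => exact fun a ha => hc a ha x hx
    | inv_mem x hx => rw [h.inv (hM hx)]; exact fun a ha => hc a ha x hx
    | mul x y _ _ hx hy => exact fun a ha => by simpa [mul_assoc] using hx _ (hy a ha)
  have h2 := H6.baer_suzuki_set (K := {x : closure M | (x : G) ∈ M}) (fun x hx g => h1 g g.2 x hx)
    (fun x hx y hy => by
      have := (h.pgroup_pair (hM hx) (hM hy) (ho _ hx _ hy)).comap_of_injective (closure M).subtype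
        Subtype.val_injective
      refine this.to_le ((closure_le _).2 ?_)
      rintro _ (rfl | rfl)
      · exact subset_closure (Or.inl rfl)
      · exact subset_closure (Or.inr rfl)) P
  have h3 : closure M ≤ (P : Subgroup (closure M)).map (closure M).subtype :=
    (closure_le _).2 fun x hx => ⟨⟨x, subset_closure hx⟩, h2 hx, rfl⟩
  exact (P.isPGroup'.map _).to_le h3

end RI

end H16.H11
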