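import Cfsg.Agent.H11.RIa

/-! Root involutions: lines not contained in `E_d`. -/

set_option autoImplicit false
set_option linter.unusedSectionVars false

open Subgroup Cfsg H16 Relation
open scoped commutatorElement

namespace H16.H11

variable {G : Type*} [Group G] {D : Set G} {a b c d e f g u x y z : G}

/-- the basic configuration: a line `{a, b, ab}` and `x` opposite to `a` but not to `b` -/
structure Cf (D : Set G) (a b x : G) : Prop where
  ma : a ∈ D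
  mb : b ∈ D
  mx : x ∈ D
  ab : Commute a b
  mab : a * b ∈ D
  od : Od a x
  v : V4 b x

/-- the opposite elements -/
def OdS (D : Set G) (a : G) : Set G := {x | x ∈ D ∧ Od a x}

/-- all members are conjugate -/
def Cls (D : Set G) : Prop := ∀ a ∈ D, ∀ b ∈ D, ∃ g ∈ closure D, g * a * g⁻¹ = b

theorem surj_of_inj {α : Type*} {B : Set α} (hB : B.Finite) (φ : α → α) (h1 : Set.MapsTo φ B B)
    (h2 : ∀ s ∈ B, ∀ t ∈ B, φ s = φ (φ t) → s = φ t) : ∀ s ∈ B, ∃ t ∈ B, φ t = s := by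
  have h3 : Set.MapsTo φ (φ '' B) (φ '' B) := by
    rintro _ ⟨t, ht, rfl⟩; exact ⟨_, h1 ht, rfl⟩
  have h4 : Set.InjOn φ (φ '' B) := by
    rintro _ ⟨s, hs, rfl⟩ _ ⟨t, ht, rfl⟩ e; exact h2 _ (h1 hs) t ht e
  have h5 := ((hB.image φ).injOn_iff_bijOn_of_mapsTo h3).1 h4
  intro s hs
  obtain ⟨_, ⟨t, ht, rfl⟩, e⟩ := h5.surjOn ⟨s, hs, rfl⟩
  exact ⟨t, ht, (h2 s hs t ht e.symm).symm⟩

namespace RI

variable (h : RI D)
include h

theorem mk_cf (ha : a ∈ D) (hb : b ∈ D) (hx : x ∈ D) (hab : Commute a b) (he : a * b ∈ D) (ho : Od a x)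
    (hn : ¬ Od b x) : Cf D a b x :=
  ⟨ha, hb, hx, hab, he, ho, ((h.cases hb hx).resolve_left (h.cent_mul' ha hx ho hb hab.symm he)).resolve_left hn⟩

theorem cf_od (c : Cf D a b x) : Od (a * b) x := by
  rcases h.cases c.mab c.mx with h2 | h2 | h2
  · exact absurd h2 (h.cent_mul' c.ma c.mx c.od c.mab ((Commute.refl a).mul_left c.ab.symm)
      (by rw [h.mul_mul c.ma]; exact c.mb))
  · exact h2
  · refine absurd ?_ (h.tri_false c.mab c.mx c.mb h2 c.v (c.ab.mul_left (Commute.refl b)))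
    rw [mul_assoc, h.sq b c.mb, mul_one]; exact c.od

theorem cf_step (c : Cf D a b x) : Cf D x ⁅b, x⁆ a := by
  have hf := h.v4_mem c.mb c.mx c.v
  refine h.mk_cf c.mx hf c.ma (h.v4_right c.mb c.mx c.v).symm ?_ c.od.symm fun ho => ?_
  · rw [← h.v4_swap c.mb c.mx c.v]; exact h.v4_mul c.mx c.mb c.v.symm
  · exact h.cent_mul' c.ma hf ho.symm c.mb c.ab.symm c.mab (h.v4_left c.mb c.mx c.v).symm

theorem refl_mem (ha : a ∈ D) (hx : x ∈ D) (ho : Od a x) (hg : g ∈ zpowers (a * x)) (g1 : g ≠ 1) :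
    g * a ∈ D ∧ Od a (g * a) := by
  obtain ⟨k, rfl⟩ := hg
  have ho' := H6.odd_orderOf_zpow ho.2 k
  have hi := H6.conj_zpow_of_inverts (H6.inv_conj_mul (h.sq a ha) (h.sq x hx)) k
  refine ⟨?_, fun e => g1 (by simpa using e), ?_⟩
  · obtain ⟨m, hm⟩ := H6.exists_sq_pow_of_odd ho'
    have := h.conj (pow_mem (zpow_mem (mul_mem (subset_closure ha) (subset_closure hx)) k) m) ha
    rw [← H6.conj_pow_of_inverts hi m, ← mul_assoc, ← mul_assoc, mul_assoc _ a a, h.sq a ha, mul_one, hm,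
      h.inv ha] at this
    exact this
  · rw [← mul_assoc]
    nth_rewrite 3 [← h.inv ha]
    rwa [hi, orderOf_inv]

theorem cf_comm (c : Cf D a b x) (hg : g ∈ zpowers (a * x)) : Commute b (g * b * g⁻¹) := by
  have hG : ∀ {g}, g ∈ zpowers (a * x) → g ∈ closure D := fun hg =>
    zpowers_le.2 (mul_mem (subset_closure c.ma) (subset_closure c.mx)) hg
  have e0 : ∀ g, g * a * b * (g * a)⁻¹ = g * b * g⁻¹ := fun g => by
    rw [mul_assoc g a b, c.ab.eq]; group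
  have key : ∀ {g}, g ∈ zpowers (a * x) → g ≠ 1 → (Commute b (g * b * g⁻¹) → b * (g * b * g⁻¹) ∈ D) ∧
      (¬ Commute b (g * b * g⁻¹) → Od b (g * b * g⁻¹)) := by
    intro g hg g1
    obtain ⟨h1, h2⟩ := h.refl_mem c.ma c.mx c.od hg g1
    rcases h.cases c.mb h1 with h3 | h3 | h3
    · exact absurd h3 (h.cent_mul' c.ma h1 h2 c.mb c.ab.symm c.mab)
    · have := h.od_cj h1 c.mb h3.symm
      rw [e0] at this
      exact ⟨fun hc => absurd hc (h.od_not_comm c.mb (h.conj (hG hg) c.mb) this), fun _ => this⟩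
    · rw [← e0]
      exact ⟨fun _ => by rw [h.v4_conj c.mb h1 h3, h.mul_mul c.mb]; exact h.v4_mem c.mb h1 h3,
        fun hc => absurd (h.v4_comm_cj c.mb h1 h3) hc⟩
  have inv' : ∀ {g}, Commute b (g * b * g⁻¹) → Commute b (g⁻¹ * b * g⁻¹⁻¹) := fun {g} hc => by
    simpa [mul_assoc] using (commute_cj hc g⁻¹).symm
  let K : Subgroup G :=
    { carrier := {g | g ∈ zpowers (a * x) ∧ Commute b (g * b * g⁻¹)}
      one_mem' := ⟨one_mem _, by simp⟩
      inv_mem' := fun hg => ⟨inv_mem hg.1, inv' hg.2⟩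
      mul_mem' := fun {g k} hg hk => ⟨mul_mem hg.1 hk.1, by
        by_contra hc
        have g1 : g ≠ 1 := by rintro rfl; exact hc (by simpa using hk.2)
        have h1 := (key (mul_mem hg.1 hk.1) (fun e => hc (by simp [e]))).2 hc
        have h2 : Od (g⁻¹ * b * g⁻¹⁻¹) (k * b * k⁻¹) := by simpa [mul_assoc] using h1.cj g⁻¹
        have h3 := (key (inv_mem hg.1) (inv_ne_one.2 g1)).1 (inv' hg.2)
        exact h.cent_mul' (h.conj (hG (inv_mem hg.1)) c.mb) (h.conj (hG hk.1) c.mb) h2 c.mb (inv' hg.2)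
          ((inv' hg.2).eq ▸ h3) hk.2⟩ }
  have : (a * x)⁻¹ ∈ K := ⟨inv_mem (mem_zpowers _), by
    have := h.v4_comm_cj c.mb c.mx c.v
    rwa [mul_inv_rev, h.inv c.ma, h.inv c.mx, e0]⟩
  exact (zpowers_le.2 (inv_mem_iff.1 this) hg).2

theorem cf_half {b' : G} (c : Cf D a b x) (c' : Cf D a b' x) (hD : u ∈ D) (hu : ⁅u, a⁆ = b') (hc : Commute u b)
    (e : ⁅b, x⁆ = ⁅b', x⁆) : b = b' := by
  have h1 : Commute (b' * b) x := by
    have : b * x * b⁻¹ = b' * x * b'⁻¹ := by rw [h.conj_eq c.mx, h.conj_eq c.mx, e]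
    rw [← H6.conj_eq_iff_commute, show b' * b * x * (b' * b)⁻¹ = b' * (b * x * b⁻¹) * b'⁻¹ by group, this,
      h.inv c'.mb]
    simp only [mul_assoc, h.mul_mul c'.mb, h.sq b' c'.mb, mul_one]
  have h2 : b' * b * a ∈ D := by
    have h3 : u * (a * b) * u⁻¹ = b' * b * a := by
      rw [← conj_mul', cj_eq hc, h.conj_eq c.ma, hu, mul_assoc, c.ab.eq, mul_assoc]
    rw [← h3]; exact h.cj _ c.mab u hD
  have := h.cent_mul c.ma c.mx c.od (c'.ab.symm.mul_left c.ab.symm) h1 h2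
  rw [eq_inv_of_mul_eq_one_right this, h.inv c'.mb]

theorem exists_ab (c : Cf D a b x) : ∃ W : Subgroup G, b ∈ W ∧ (∀ s ∈ W, ∀ t ∈ W, Commute s t) ∧
    (∀ s ∈ W, ⁅s, a⁆ ∈ W) ∧ ∀ s ∈ W, ⁅s, x⁆ ∈ W := by
  let S : Set G := {s | ∃ g ∈ zpowers (a * x), g * b * g⁻¹ = s}
  have key : ∀ y, (∀ s ∈ S, y * s * y⁻¹ ∈ S) → ∀ s ∈ closure S, y * s * y⁻¹ ∈ closure S := by
    intro y hy s hs
    induction hs using closure_induction with
    | mem s hs => exact subset_closure (hy s hs)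
    | one => simp
    | mul s t _ _ hs ht => rw [← conj_mul']; exact mul_mem hs ht
    | inv s _ hs => simpa [mul_assoc] using inv_mem hs
  have ha : ∀ s ∈ closure S, a * s * a⁻¹ ∈ closure S := key a (by
    rintro _ ⟨_, ⟨k, rfl⟩, rfl⟩
    have hi := H6.conj_zpow_of_inverts (H6.inv_conj_mul (h.sq a c.ma) (h.sq x c.mx)) k
    refine ⟨_, inv_mem (zpow_mem (mem_zpowers _) k), ?_⟩
    dsimp only
    generalize (a * x) ^ k = r at hi ⊢
    conv_lhs => rw [← hi, ← cj_eq c.ab]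
    group)
  have hax : ∀ s ∈ closure S, a * x * s * (a * x)⁻¹ ∈ closure S := key _ (by
    rintro _ ⟨g, hg, rfl⟩
    exact ⟨a * x * g, mul_mem (mem_zpowers _) hg, by group⟩)
  refine ⟨closure S, subset_closure ⟨1, one_mem _, by simp⟩, fun s hs t ht => ?_, fun s hs => ?_, fun s hs => ?_⟩
  · refine commute_of_le ((closure_le _).2 ?_ : closure S ≤ centralizer (closure S : Set G)) hs ht
    rintro _ ⟨g, hg, rfl⟩
    rw [SetLike.mem_coe, centralizer_closure, mem_centralizer_iff]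
    rintro _ ⟨k, hk, rfl⟩
    have := commute_cj (h.cf_comm c (mul_mem (inv_mem hk) hg)) k
    simpa [mul_assoc] using this.eq
  · have := mul_mem hs (ha _ (inv_mem hs))
    rwa [← mul_assoc, ← mul_assoc] at this
  · have := mul_mem hs (ha _ (hax _ (inv_mem hs)))
    rwa [show a * (a * x * s⁻¹ * (a * x)⁻¹) * a⁻¹ = a * (a * x) * s⁻¹ * (a * (a * x))⁻¹ by group, h.mul_mul c.ma,
      ← mul_assoc, ← mul_assoc] at this

/-- the basic existence lemma -/
theorem cf_ex [Finite G] (c : Cf D a b x) : ∃ u, Cf D x u a ∧ ⁅u, a⁆ = b := by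
  obtain ⟨W, hb, hW, ha, hx⟩ := h.exists_ab c
  obtain ⟨t, ht, e⟩ := surj_of_inj (B := {s | s ∈ W ∧ Cf D a s x}) (Set.toFinite _) (fun s => ⁅⁅s, x⁆, a⁆)
    (fun s hs => ⟨ha _ (hx _ hs.1), h.cf_step (h.cf_step hs.2)⟩) (fun s hs t ht e => by
      have c1 := h.cf_step ht.2
      have c2 := h.cf_step c1
      have w1 := hx _ ht.1
      have w2 := ha _ w1
      exact h.cf_half hs.2 c2 c1.mb rfl (hW _ w1 _ hs.1)
        (h.cf_half (h.cf_step hs.2) (h.cf_step c2) c2.mb rfl (hW _ w2 _ (hx _ hs.1)) e)) b ⟨hb, c⟩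
  exact ⟨_, h.cf_step ht.2, e⟩

theorem mem_ods_cj (hg : g ∈ closure D) : g * x * g⁻¹ ∈ OdS D (g * a * g⁻¹) ↔ x ∈ OdS D a :=
  ⟨fun h1 => ⟨by simpa [mul_assoc] using h.conj (inv_mem hg) h1.1, by simpa [mul_assoc] using h1.2.cj g⁻¹⟩,
    fun h1 => ⟨h.conj hg h1.1, h1.2.cj g⟩⟩

theorem ods_cj (hg : g ∈ closure D) (e : OdS D a = OdS D b) : OdS D (g * a * g⁻¹) = OdS D (g * b * g⁻¹) := by
  ext x
  rw [show x = g * (g⁻¹ * x * g) * g⁻¹ by group, h.mem_ods_cj hg, h.mem_ods_cj hg, e]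

theorem ex_ods [Finite G] (hc : Cls D) (ha : a ∈ D) (hb : b ∈ D) (hn : OdS D a ≠ OdS D b) :
    ∃ x ∈ D, Od a x ∧ ¬ Od b x := by
  by_contra hx
  push Not at hx
  obtain ⟨g, hg, rfl⟩ := hc a ha b hb
  refine hn (Set.eq_of_subset_of_ncard_le (fun x h1 => ⟨h1.1, hx x h1.1 h1.2⟩) ?_ (Set.toFinite _))
  refine Set.ncard_le_ncard_of_injOn (fun x => g⁻¹ * x * g) (fun x h1 => (h.mem_ods_cj hg).1 ?_)
    (fun x _ y _ e => by simpa using e) (Set.toFinite _)
  simpa [mul_assoc] using h1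

theorem ex_cf [Finite G] (hc : Cls D) (ha : a ∈ D) (hb : b ∈ D) (hab : Commute a b) (he : a * b ∈ D)
    (hn : OdS D a ≠ OdS D b) : ∃ x, Cf D a b x := by
  obtain ⟨x, hx, h1, h2⟩ := h.ex_ods hc ha hb hn
  exact ⟨x, h.mk_cf ha hb hx hab he h1 h2⟩

omit h in
theorem _root_.H16.H11.Cf.ne (c : Cf D a b x) : OdS D a ≠ OdS D b := fun e =>
  (e ▸ (⟨c.mx, c.od⟩ : x ∈ OdS D a) : x ∈ OdS D b).2.not_v4 c.v

theorem cf_ne [Finite G] (hc : Cls D) (c : Cf D a b x) : OdS D a ≠ OdS D (a * b) := by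
  obtain ⟨y, c1⟩ := h.ex_cf hc c.mb c.ma c.ab.symm (c.ab.eq ▸ c.mab) c.ne.symm
  obtain ⟨t, c2, e⟩ := h.cf_ex c1
  intro e'
  have h1 := (h.mem_ods_cj (subset_closure c2.mb)).2 (⟨c.mx, c.od⟩ : x ∈ OdS D a)
  have h2 := c.v.cj t
  rw [h.conj_eq c.mb, e] at h2
  rw [cj_eq (e ▸ h.v4_left c2.mb c.mb c2.v).symm, e'] at h1
  exact h1.2.not_v4 h2

theorem ods_not_od (e : OdS D a = OdS D b) (hb : b ∈ D) : ¬ Od a b := fun ho =>
  (e ▸ (⟨hb, ho⟩ : b ∈ OdS D a) : b ∈ OdS D b).2.1 rfl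

theorem ods_comm [Finite G] (hc : Cls D) (hC : c ∈ D) (he : e ∈ D) (hd : Commute c d) (e1 : OdS D e = OdS D d)
    (hv : V4 c e) : OdS D ⁅c, e⁆ = OdS D e := by
  by_contra hn
  obtain ⟨x, c1⟩ := h.ex_cf hc he (h.v4_mem hC he hv) (h.v4_right hC he hv).symm
    (h.v4_swap hC he hv ▸ h.v4_mul he hC hv.symm) (Ne.symm hn)
  refine h.cf_ne hc c1 ?_
  have := h.ods_cj (subset_closure hC) e1
  rw [cj_eq hd, h.v4_conj he hC hv.symm, h.v4_swap hC he hv] at this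
  rw [this, e1]

theorem ods_of_v4 [Finite G] (hc : Cls D) (hC : c ∈ D) (he : e ∈ D) (hd : Commute c d) (e1 : OdS D e = OdS D d)
    (hv : V4 c e) : OdS D c = OdS D e := by
  have e2 := h.ods_comm hc hC he hd e1 hv
  have hg := h.v4_mem hC he hv
  have gc := h.v4_left hC he hv
  by_contra hn
  obtain ⟨x, c1⟩ := h.ex_cf hc hg hC gc (gc.eq ▸ h.v4_mul hC he hv) (e2 ▸ Ne.symm hn)
  obtain ⟨u, c2, e3⟩ := h.cf_ex c1
  have hu : V4 e u := by
    rcases h.cases he c2.mb with h1 | h1 | h1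
    · refine absurd ?_ (h.v4_not_comm hC he hv)
      rw [← e3, commutatorElement_def]
      have h2 := h.v4_right hC he hv
      exact ((h1.symm.mul_left h2).mul_left h1.symm.inv_left).mul_left h2.inv_left
    · exact absurd c2.v.symm (e2 ▸ (⟨c2.mb, h1⟩ : u ∈ OdS D e) : u ∈ OdS D _).2.not_v4
    · exact h1
  have e4 := h.ods_cj (subset_closure c2.mb) e2
  rw [h.conj_eq hg, e3] at e4
  have e5 := h.ods_cj (subset_closure he) e4
  rw [cj_eq (h.v4_comm_cj he c2.mb hu), ← e4, ← conj_mul', h.v4_conj hC he hv,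
    cj_eq (h.v4_right hC he hv).symm, mul_assoc, h.sq _ hg, mul_one] at e5
  have := h.cf_od c1
  rw [gc.eq] at this
  exact (e5 ▸ (⟨c1.mx, this⟩ : x ∈ OdS D _) : x ∈ OdS D c).2.not_v4 c1.v

theorem commute_of_ods [Finite G] (hc : Cls D) (ha : a ∈ D) (hb : b ∈ D) (e1 : OdS D a = OdS D b) : Commute a b := by
  rcases h.cases ha hb with h1 | h1 | h1
  · exact h1
  · exact absurd h1 (h.ods_not_od e1 hb)
  exfalso
  let M : Set G := {e | e ∈ D ∧ OdS D e = OdS D a}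
  have hP : IsPGroup 2 (closure M) := h.pgroup_closure (fun _ h => h.1) (fun s hs t ht => ⟨h.cj s hs.1 t ht.1, by
      rw [h.ods_cj (subset_closure ht.1) (hs.2.trans ht.2.symm), mul_inv_cancel_right, ht.2]⟩)
    fun s hs t ht => h.ods_not_od (hs.2.trans ht.2.symm) ht.1
  have e2 := h.ods_comm hc ha hb (Commute.refl a) e1.symm h1
  refine not_nil_of_comm (N := closure M) (fun e => h.ne a ha ?_) le_rfl ((closure_le _).2 fun z hz => ?_) hP.isNilpotent
  · exact (e ▸ subset_closure (⟨ha, rfl⟩ : a ∈ M) : a ∈ (⊥ : Subgroup G))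
  · obtain ⟨g, hg, rfl⟩ := hc _ (h.v4_mem ha hb h1) z hz.1
    have e3 := h.ods_cj hg (e2.trans e1.symm)
    rw [conjugate_commutatorElement]
    refine commutator_mem_commutator (subset_closure ⟨h.conj hg ha, ?_⟩) (subset_closure ⟨h.conj hg hb, ?_⟩)
    · rw [← e3, hz.2]
    · rw [← h.ods_cj hg e1, ← e3, hz.2]

theorem cent_of_ods [Finite G] (hc : Cls D) (he : e ∈ D) (e1 : OdS D e = OdS D d) (hC : c ∈ D) (hd : d ∈ D)
    (hcd : Commute c d) : Commute c e := by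
  rcases h.cases hC he with h1 | h1 | h1
  · exact h1
  · exact absurd hcd.symm (h.od_not_comm hd hC (e1 ▸ (⟨hC, h1.symm⟩ : c ∈ OdS D e) : c ∈ OdS D d).2)
  · exact h.commute_of_ods hc hC he (h.ods_of_v4 hc hC he hcd e1 h1)

theorem ods_of_cent (he : e ∈ D) (hd : d ∈ D) (h1 : ∀ c ∈ D, Commute c e → Commute c d) : OdS D d ⊆ OdS D e := by
  rintro x ⟨hx, ho⟩
  refine ⟨hx, ?_⟩
  rcases h.cases he hx with h2 | h2 | h2
  · exact absurd (h1 x hx h2.symm).symm (h.od_not_comm hd hx ho)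
  · exact h2
  · exact absurd (h1 _ (h.v4_mem he hx h2) (h.v4_left he hx h2)) (h.cent_mul' hx hd ho.symm (h.v4_mem he hx h2)
      (h.v4_right he hx h2) (h.v4_swap he hx h2 ▸ h.v4_mul hx he h2.symm))

/-- `E_d` is the set of members with the same opposite elements -/
theorem same_iff [Finite G] (hc : Cls D) (hd : d ∈ D) :
    e ∈ sameCommutingClass D d ↔ e ∈ D ∧ OdS D e = OdS D d := by
  refine and_congr_right fun he => ⟨fun h1 => ?_, fun h1 => ?_⟩
  · refine (h.ods_of_cent hd he fun c hc h2 => ?_).antisymm (h.ods_of_cent he hd fun c hc h2 => ?_)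
    · exact (h1 ▸ (⟨hc, h2⟩ : c ∈ commutingMembers D d) : c ∈ commutingMembers D e).2
    · exact (h1.symm ▸ (⟨hc, h2⟩ : c ∈ commutingMembers D e) : c ∈ commutingMembers D d).2
  · ext c
    exact and_congr_right fun hC => ⟨h.cent_of_ods hc he h1 hC hd, h.cent_of_ods hc hd h1.symm hC he⟩

theorem cls_of_conn (hc : IsConnectedSet (OddAdj D) D) : Cls D := fun a ha b hb => h.conj_of_conn (hc a ha b hb)

theorem three [Finite G] (hc : Cls D) (c : Cf D a b x) : ∃ y ∈ D, V4 b y ∧ orderOf (a * y) = 3 := by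
  obtain ⟨f, c1, e1⟩ := h.cf_ex c
  have bf : Commute b f := e1 ▸ h.v4_left c1.mb c.ma c1.v
  have e2 : a * f * a⁻¹ = f * b := by rw [h.v4_conj c1.mb c.ma c1.v, e1]
  obtain ⟨y, c2⟩ := h.ex_cf hc c.mb c1.mb bf (by rw [bf.eq, ← e2]; exact h.cj _ c1.mb _ c.ma) fun e =>
    h.v4_not_comm c1.mb c.ma c1.v (h.cent_of_ods hc c1.mb e.symm c.ma c.mb c.ab).symm
  obtain ⟨t, c3, e3⟩ := h.cf_ex c2
  have tf : Commute t f := (e3 ▸ h.v4_left c3.mb c.mb c3.v).symm
  have s1 : a * t * b * (a * t)⁻¹ = f := by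
    rw [show a * t * b * (a * t)⁻¹ = a * (t * b * t⁻¹) * a⁻¹ by group, h.conj_eq c.mb, e3, ← conj_mul', e2,
      cj_eq c.ab, mul_assoc, h.sq b c.mb, mul_one]
  have s2 : a * t * f * (a * t)⁻¹ = f * b := by
    rw [show a * t * f * (a * t)⁻¹ = a * (t * f * t⁻¹) * a⁻¹ by group, cj_eq tf, e2]
  have s3 : Commute ((a * t) ^ 3) b := by
    rw [← H6.conj_eq_iff_commute, show (a * t) ^ 3 * b * ((a * t) ^ 3)⁻¹ =
      a * t * (a * t * (a * t * b * (a * t)⁻¹) * (a * t)⁻¹) * (a * t)⁻¹ by rw [pow_three']; group, s1, s2, ← conj_mul', s1, s2,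
      bf.symm.eq, mul_assoc, h.sq f c1.mb, mul_one]
  have s4 : ¬ Commute (a * t) b := fun hc => by
    rw [cj_eq hc] at s1
    exact h.v4_not_comm c1.mb c.ma c1.v (s1 ▸ c.ab.symm)
  have ho : Od a t := by
    by_contra ho
    refine s4 ?_
    rw [eq_inv_of_mul_eq_one_right (show (a * t) ^ 3 * (a * t) = 1 by rw [← pow_succ]; exact h.pow_four c.ma c3.mb ho)]
    exact s3.inv_left
  refine ⟨t, c3.mb, c3.v.symm, orderOf_eq_prime ?_ fun e => s4 (e ▸ Commute.one_left b)⟩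
  by_contra h3
  obtain ⟨h1, h2⟩ := h.refl_mem c.ma c3.mb ho (pow_mem (mem_zpowers _) 3) h3
  exact h.cent_mul' c.ma h1 h2 c.mb c.ab.symm c.mab (s3.mul_left c.ab).symm

end RI

end H16.H11
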