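import Cfsg.Agent.H11.RIb
import Cfsg.Agent.H1.Cores
import Cfsg.Prelude.Def_QuasithinSetup

/-! Root involutions: normal subgroups. -/

set_option autoImplicit false
set_option linter.unusedSectionVars false

open Subgroup Cfsg H16 Relation
open scoped commutatorElement

namespace H16.H11

variable {G : Type*} [Group G] {D : Set G} {a b c d e f g u x y z : G} {N : Subgroup G}

/-- every member lies on a line -/
def Lined (D : Set G) : Prop := ∀ a ∈ D, ∃ b ∈ D, Commute a b ∧ a * b ∈ D

theorem RI.lined (h : RI D) (hc : Cls D) (hDD : (D ∩ commutingProducts D).Nonempty) : Lined D := by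
  obtain ⟨_, h1, a, ha, b, hb, hab, -, rfl⟩ := hDD
  intro d hd
  obtain ⟨g, hg, rfl⟩ := hc a ha d hd
  exact ⟨_, h.conj hg hb, commute_cj hab g, conj_mul' g a b ▸ h.conj hg h1⟩

theorem mk_cj_eq [N.Normal] (hn : g ∈ N) (d : G) : ((g * d * g⁻¹ : G) : G ⧸ N) = d := by
  simp [(QuotientGroup.eq_one_iff g).2 hn]

theorem RI.commute_cj_of_normal (h : RI D) (hl : Lined D) [N.Normal] (hN : ∀ d ∈ D, d ∉ N) (hd : d ∈ D) (hn : g ∈ N)
    (hx : g * d * g⁻¹ ∈ D) : Commute d (g * d * g⁻¹) := by
  have key : ∀ b ∈ D, Commute b d → ¬ V4 b (g * d * g⁻¹) := fun b hb hc hv =>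
    hN _ (h.v4_mem hb hx hv) (by
      rw [← QuotientGroup.eq_one_iff]
      have := commutatorElement_eq_one_iff_commute.2 (hc.map (QuotientGroup.mk' N))
      simpa [commutatorElement_def, mk_cj_eq hn, (QuotientGroup.eq_one_iff g).2 hn] using this)
  rcases h.cases hd hx with h1 | h1 | h1
  · exact h1
  · obtain ⟨b, hb, hc, he⟩ := hl d hd
    rcases h.cases hb hx with h2 | h2 | h2
    · exact absurd h2 (h.cent_mul' hd hx h1 hb hc.symm he)
    · refine absurd ?_ (hN _ he)
      rw [← QuotientGroup.eq_one_iff]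
      refine H6.eq_one_of_odd_of_sq (h2.2.of_dvd_nat ?_) (by rw [← QuotientGroup.mk_mul, h.sq _ he]; rfl)
      refine orderOf_dvd_of_pow_eq_one ?_
      rw [hc.eq, QuotientGroup.mk_mul, ← mk_cj_eq hn d, ← QuotientGroup.mk_mul, ← QuotientGroup.mk_pow,
        pow_orderOf_eq_one]
      rfl
    · exact absurd h2 (key b hb hc.symm)
  · exact absurd h1 (key d hd rfl)

theorem isPGroup_closure_of_comm {S : Set G} (h1 : ∀ s ∈ S, s * s = 1) (h2 : ∀ s ∈ S, ∀ t ∈ S, Commute s t) :
    IsPGroup 2 (closure S) := by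
  have hc : closure S ≤ centralizer (closure S : Set G) := (closure_le _).2 fun s hs => by
    rw [SetLike.mem_coe, centralizer_closure, mem_centralizer_iff]
    exact fun t ht => h2 t ht s hs
  rintro ⟨x, hx⟩
  refine ⟨1, Subtype.ext ?_⟩
  simp only [pow_one, pow_two, MulMemClass.mk_mul_mk, OneMemClass.coe_one]
  induction hx using closure_induction with
  | mem s hs => exact h1 s hs
  | one => simp
  | mul s t hs ht e1 e2 =>
    rw [mul_assoc, ← mul_assoc t, ← (commute_of_le hc hs ht).eq, mul_assoc, e2, mul_one, e1]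
  | inv s _ hs => rw [← mul_inv_rev, hs, inv_one]

theorem le_twoZCore (hD : IsRootInvolutionSet D) (hl : Lined D) [N.Normal] (hN : ∀ d ∈ D, d ∉ N) : N ≤ twoZCore G := by
  have h := ri_of hD
  have key : ∀ d ∈ D, ∀ n ∈ N, ⁅n, d⁆ ∈ pCore 2 G := by
    intro d hd n hn
    let S : Set G := {s | ∃ g ∈ N, g * d * g⁻¹ = s}
    have hP : IsPGroup 2 (closure S) := isPGroup_closure_of_comm
      (by rintro _ ⟨g, -, rfl⟩; exact h.sq _ (hD.conj_mem d hd g)) (by
        rintro _ ⟨g, hg, rfl⟩ _ ⟨k, hk, rfl⟩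
        simpa [mul_assoc] using commute_cj (h.commute_cj_of_normal hl hN hd (mul_mem (inv_mem hg) hk)
          (hD.conj_mem d hd _)) g)
    have hcj : ∀ y ∈ N, ∀ s ∈ closure S, y * s * y⁻¹ ∈ closure S := by
      intro y hy s hs
      induction hs using closure_induction with
      | mem s hs => obtain ⟨g, hg, rfl⟩ := hs; exact subset_closure ⟨y * g, mul_mem hy hg, by group⟩
      | one => simp
      | mul s t _ _ hs ht => rw [← conj_mul']; exact mul_mem hs ht
      | inv s _ hs => simpa [mul_assoc] using inv_mem hs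
    refine H1.subnormal_le_pCore (H := closure S ⊓ N) (.step _ N inf_le_right (Normal.isSubnormal inferInstance) ?_)
      (hP.to_le inf_le_left) ⟨?_, ?_⟩
    · exact ⟨fun s hs y => ⟨hcj y y.2 s hs.1, (y * s * y⁻¹).2⟩⟩
    · exact (closure S).mul_mem (subset_closure ⟨n, hn, rfl⟩) (inv_mem (subset_closure ⟨1, one_mem _, by simp⟩))
    · rw [commutatorElement_def, mul_assoc n, mul_assoc n]
      exact mul_mem hn (Normal.conj_mem inferInstance _ (inv_mem hn) d)
  intro n hn
  rw [twoZCore, mem_comap, mem_center_iff]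
  intro q
  obtain ⟨q, rfl⟩ := QuotientGroup.mk'_surjective _ q
  have hq : q ∈ closure D := hD.generates ▸ mem_top q
  change Commute _ _
  induction hq using closure_induction with
  | mem s hs =>
    refine (commutatorElement_eq_one_iff_commute.1 ?_).symm
    rw [← map_commutatorElement]
    exact (QuotientGroup.eq_one_iff _).2 (key s hs n hn)
  | one => simp
  | mul s t _ _ hs ht => rw [map_mul]; exact hs.mul_left ht
  | inv s _ hs => rw [map_inv]; exact hs.inv_left

theorem eq_top_of_mem (hD : IsRootInvolutionSet D) (hc : Cls D) [N.Normal] (hd : d ∈ D) (hN : d ∈ N) : N = ⊤ := by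
  rw [eq_top_iff, ← hD.generates, closure_le]
  intro e he
  obtain ⟨g, -, rfl⟩ := hc d hd e he
  exact Normal.conj_mem inferInstance d hN g

theorem perfect_of_lined (hD : IsRootInvolutionSet D) (hc : Cls D) (hl : Lined D) : commutator G = ⊤ := by
  rw [eq_top_iff, ← hD.generates, closure_le]
  intro a ha
  obtain ⟨b, hb, -, he⟩ := hl a ha
  obtain ⟨g, -, e⟩ := hc b hb _ he
  have : ⁅g, b⁆ = a := by rw [commutatorElement_def, e, mul_inv_cancel_right]
  exact this ▸ commutator_mem_commutator (mem_top g) (mem_top b)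

theorem twoZCore_solvable [Finite G] : Group.IsSolvable (twoZCore G) := by
  have h1 : Group.IsSolvable (pCore 2 G) := sol_of_nil (H1.isPGroup_pCore 2).isNilpotent
  have h2 : Group.IsSolvable (center (G ⧸ pCore 2 G)) := sol_of_comm inferInstance
  let f : twoZCore G →* center (G ⧸ pCore 2 G) :=
    ((QuotientGroup.mk' (pCore 2 G)).comp (twoZCore G).subtype).codRestrict _ fun x => x.2
  have hle : pCore 2 G ≤ twoZCore G := fun x hx => by
    rw [twoZCore, mem_comap, QuotientGroup.mk'_apply, (QuotientGroup.eq_one_iff x).2 hx]; exact one_mem _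
  refine Group.isSolvable_of_ker_le_range (inclusion hle) f fun x hx => ⟨⟨x, ?_⟩, rfl⟩
  exact (QuotientGroup.eq_one_iff _).1 (congrArg Subtype.val hx)

theorem normal_cases (hD : IsRootInvolutionSet D) (hc : Cls D) (hl : Lined D) (N : Subgroup G) [N.Normal] :
    N = ⊤ ∨ N ≤ twoZCore G := by
  by_cases h1 : ∀ d ∈ D, d ∉ N
  · exact Or.inr (le_twoZCore hD hl h1)
  · push Not at h1
    obtain ⟨d, hd, h1⟩ := h1
    exact Or.inl (eq_top_of_mem hD hc hd h1)

theorem not_solvable_top (hD : IsRootInvolutionSet D) (hc : Cls D) (hl : Lined D) (hd : d ∈ D) :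
    ¬ Group.IsSolvable (⊤ : Subgroup G) := fun hs => by
  have : Group.IsSolvable G := Group.isSolvable_of_surjective (f := (⊤ : Subgroup G).subtype) fun x => ⟨⟨x, mem_top x⟩, rfl⟩
  have : Nontrivial G := ⟨d, 1, (ri_of hD).ne d hd⟩
  exact (Group.IsSolvable.commutator_lt_top_of_nontrivial G).ne (perfect_of_lined hD hc hl)

theorem simple_quot [Finite G] (hD : IsRootInvolutionSet D) (hc : Cls D) (hl : Lined D) (hd : d ∈ D) :
    IsSimpleGroup (G ⧸ twoZCore G) := by
  have hne : twoZCore G ≠ ⊤ := fun e => not_solvable_top hD hc hl hd (e ▸ twoZCore_solvable)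
  have : Nontrivial (G ⧸ twoZCore G) := QuotientGroup.nontrivial_iff.2 hne
  refine ⟨fun M hM => ?_⟩
  rcases normal_cases hD hc hl (M.comap (QuotientGroup.mk' _)) with h1 | h1
  · exact Or.inr (by rw [← map_comap_eq_self_of_surjective (QuotientGroup.mk'_surjective _) M, h1,
      map_top_of_surjective _ (QuotientGroup.mk'_surjective _)])
  · refine Or.inl ?_
    rw [← map_comap_eq_self_of_surjective (QuotientGroup.mk'_surjective _) M, Subgroup.map_eq_bot_iff,
      QuotientGroup.ker_mk']
    exact h1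

end H16.H11
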