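import Cfsg.Agent.H26.Rv1

/-! Piece VH for S4959: translating a character by a centralizing element. -/

set_option autoImplicit false
set_option linter.unusedSectionVars false
set_option linter.unusedVariables false

namespace H11.Vh

open Cfsg H17 H19 H26Rv Subgroup

theorem aux {C L : Type*} [Group C] [Finite C] [Group L] [Finite L] (f : L →* C) {v : C}
    (hv : v ∈ center C) {χ : C → ℂ} (hχ : IsCharacter C χ) :
    (fun h : L => χ (v * f h)) ∈ TT L := by
  refine H17.Cfsg.IsCharacter.induction_on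
    (P := fun χ => (fun h : L => χ (v * f h)) ∈ TT L) hχ ?_ ?_ ?_
  · exact (TT L).zero_mem
  · intro ψ hψ
    obtain ⟨lam, hlam⟩ := H17.Cfsg.IsIrrCharacter.exists_linear_center hψ
    have hc : IsCharacter C ψ := by
      obtain ⟨n, ρ, -, h⟩ := hψ
      exact ⟨n, ρ, h⟩
    have hint : IsIntegral ℤ ((lam ⟨v, hv⟩ : ℂˣ) : ℂ) := by
      have h1 : (lam ⟨v, hv⟩) ^ (orderOf (⟨v, hv⟩ : center C)) = 1 := by
        rw [← map_pow, pow_orderOf_eq_one, map_one]
      refine IsIntegral.of_pow (orderOf_pos (⟨v, hv⟩ : center C)) ?_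
      rw [← Units.val_pow_eq_pow_val, h1, Units.val_one]
      exact isIntegral_one
    have := smul_mem hint (char_mem (H17.Cfsg.IsCharacter.comp hc f))
    convert this using 2 with h
    exact hlam ⟨v, hv⟩ (f h)
  · intro φ ψ _ _ h1 h2
    exact (TT L).add_mem h1 h2

theorem vh {X : Type*} [Group X] [Finite X] (K : Subgroup X) {v : X}
    (hv : ∀ h ∈ K, h * v = v * h) {χ : X → ℂ} (hχ : IsCharacter X χ) :
    (fun h : K => χ (v * h)) ∈ TT K := by
  have hK : K ≤ centralizer ({v} : Set X) := fun h hh =>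
    mem_centralizer_singleton_iff.2 (hv h hh)
  have hvC : v ∈ centralizer ({v} : Set X) := mem_centralizer_singleton_iff.2 rfl
  have hz : (⟨v, hvC⟩ : centralizer ({v} : Set X)) ∈ center (centralizer ({v} : Set X)) :=
    mem_center_iff.2 fun g => Subtype.ext (mem_centralizer_singleton_iff.1 g.2)
  exact aux (inclusion hK) hz (H17.Cfsg.IsCharacter.restrict hχ (centralizer ({v} : Set X)))

end H11.Vh
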